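import Cfsg.Agent.H30.J2U.Data

/-! Kernel checks of the certificate, the certificate. -/

set_option autoImplicit false
set_option maxRecDepth 4000

namespace Cfsg.Agent.H30.J2U.Cert

open Cfsg.Agent.H16 EnumData

theorem facts_0 : allFrom (fun i => data.checkFact i) 1500 0 = true := by decide +kernel

theorem facts_1500 : allFrom (fun i => data.checkFact i) 288 1500 = true := by decide +kernel

theorem rows_0 : allFrom (fun i => data.checkRow i) 315 0 = true := by decide +kernel

theorem base_check : data.checkBase = true := by decide +kernel

/-- The certificate is valid. -/
theorem valid : data.Valid where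
  facts_ok := (allFrom_extend (allFrom_extend allFrom_nil
    facts_0)
    facts_1500)
  rows_ok := (allFrom_extend allFrom_nil
    rows_0)
  base_ok := base_check

end Cfsg.Agent.H30.J2U.Cert
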