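import Cfsg.Agent.H30.J2U.ModelFacts
import Cfsg.Agent.H59.HJ.Main
import Cfsg.Agent.H59.HJ.FiveCount

/-!
# The pattern of generators in a group of Hall–Janko type
-/

set_option autoImplicit false
set_option linter.style.haveILetI false
set_option maxHeartbeats 1000000

namespace Cfsg.Agent.H30.J2U

open Subgroup Cfsg.Agent.H59.HJ

variable {G : Type*} [Group G] [Finite G] {z : G} {Φ : Q0 × A5 → G}

/-- A frame conjugated by an element of the centralizer. -/
theorem frame_conj (F : Frame z Φ) {c : G} (hc : c ∈ centralizer ({z} : Set G)) :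
    Frame z (fun a => c * Φ a * c⁻¹) where
  inj a b h := F.inj (mul_left_cancel (mul_right_cancel h))
  range g := by
    refine ⟨fun hg => ?_, ?_⟩
    · obtain ⟨a, ha⟩ := (F.range (c⁻¹ * g * c)).1 (mul_mem (mul_mem (inv_mem hc) hg) hc)
      exact ⟨a, by rw [ha]; group⟩
    · rintro ⟨a, rfl⟩
      exact mul_mem (mul_mem hc ((F.range _).2 ⟨a, rfl⟩)) (inv_mem hc)
  mul a b := by rw [F.mul]; group
  zmap := by
    show c * Φ (Cfsg.Agent.H59.HJ.zQ, 1) * c⁻¹ = z
    rw [F.zmap, mem_centralizer_singleton_iff.1 hc, mul_inv_cancel_right]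
  conjz := (isConj_iff.2 ⟨c, rfl⟩ : IsConj (Φ (gen 0, 1)) _).symm.trans F.conjz
  sylow := F.sylow
  cl := F.cl

/-- The permutations inside the centralizer. -/
def sigHom (F : Frame z Φ) : A5 →* G where
  toFun σ := Φ (0, σ)
  map_one' := F.one
  map_mul' σ τ := by rw [← F.mul, pm_zero]

@[simp] theorem sigHom_apply (F : Frame z Φ) (σ : A5) : sigHom F σ = Φ (0, σ) := rfl

theorem phi_sq_inv (F : Frame z Φ) {a : Q0 × A5} (h : pm a a = (0, 1)) : (Φ a)⁻¹ = Φ a :=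
  inv_eq_of_mul_eq_one_right ((F.sq_iff a).2 h)

variable {t f k : G} {E A B W : Subgroup G}

/-- The inner involution lies in the component. -/
theorem a_mem (F : Frame z Φ) (hsig : Φ tC = t) (d : Data z t f k E A B W) : Φ aC ∈ B := by
  refine d.split.AB ((d.loc.memA _).2 ⟨(d.loc.memE _).2 ⟨(F.range _).2 ⟨_, rfl⟩, ?_⟩,
    Or.inr (F.inner_conj model_misc.2.2.2.1 model_misc.2.2.2.2.1)⟩)
  rw [← hsig, F.comm_iff]
  exact model_misc.2.2.2.2.2.1

/-- The component commutes with the permutations fixing the last point. -/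
theorem comm_fixes (F : Frame z Φ) (hsig : Φ tC = t) (d : Data z t f k E A B W) :
    ∀ y ∈ B, ∀ σ : A5, Fixes σ → Commute y (Φ (0, σ)) := by
  classical
  have haB := a_mem F hsig d
  obtain ⟨g, hg3, hgN, hgt, hgz, hgB⟩ := d.split.exists_outer d.loc
  obtain ⟨w₀, hw₀, hw₀1, hw₀t⟩ : ∃ w ∈ W, w ≠ 1 ∧ w ≠ t := by
    by_contra hcon
    simp only [not_exists, not_and, not_not] at hcon
    have hsub : (W : Set G) ⊆ {1, t} := fun x hx => by
      by_cases h1 : x = 1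
      · exact Or.inl h1
      · exact Or.inr (hcon x hx h1)
    have h := (Set.ncard_le_ncard hsub).trans (Set.ncard_insert_le _ _)
    rw [Set.ncard_singleton, ← Nat.card_coe_set_eq, SetLike.coe_sort_coe, d.split.cardW] at h
    omega
  have ht1 : t ≠ 1 := d.loc.t_ne
  have hW : ∀ x ∈ W, x ∈ ({1, t, w₀, t * w₀} : Set G) := by
    intro x hx
    have hsub : ({1, t, w₀, t * w₀} : Set G) ⊆ (W : Set G) := by
      rintro y (rfl | rfl | rfl | rfl)
      exacts [one_mem _, d.split.tW, hw₀, mul_mem d.split.tW hw₀]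
    have h4 : ({1, t, w₀, t * w₀} : Set G).ncard = 4 := by
      have e : t * t = 1 := d.split.sqW t d.split.tW
      have n1 : t * w₀ ≠ 1 := fun h => hw₀t (mul_left_cancel (h.trans e.symm))
      have n2 : t * w₀ ≠ t := fun h => hw₀1 (mul_eq_left.1 h)
      have n3 : t * w₀ ≠ w₀ := fun h => ht1 (mul_eq_right.1 h)
      rw [Set.ncard_insert_of_notMem, Set.ncard_insert_of_notMem, Set.ncard_insert_of_notMem,
        Set.ncard_singleton] <;>
        simp [ht1.symm, hw₀1.symm, hw₀t.symm, n1.symm, n2.symm, n3.symm]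
    have heq := Set.eq_of_subset_of_ncard_le hsub
      (by rw [h4, ← Nat.card_coe_set_eq, SetLike.coe_sort_coe, d.split.cardW])
    rw [heq]
    exact hx
  obtain ⟨u, rfl⟩ := (F.range w₀).1 ((d.loc.memE _).1 (d.split.WE hw₀)).1
  obtain ⟨γ, rfl⟩ := (F.range g).1 hgz
  have hu_comm : pm u tC = pm tC u := by
    rw [← F.comm_iff, hsig]
    exact ((d.loc.memE _).1 (d.split.WE hw₀)).2
  have hu2 : u.2 ≠ 1 := by
    intro h
    have hsq := (F.sq_iff u).1 (d.split.sqW _ hw₀)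
    have hA : Φ u ∈ A := (d.loc.memA _).2 ⟨d.split.WE hw₀, ((F.inner_iff hsq).2 h).elim
      (fun e => Or.inl (by rw [e, F.one])) Or.inr⟩
    have hbot : Φ u ∈ W ⊓ B := ⟨hw₀, d.split.AB hA⟩
    rw [d.split.disj, mem_bot] at hbot
    exact hw₀1 hbot
  have hut : u ≠ tC := fun h => hw₀t (by rw [h, hsig])
  have hmem := outer_commuting u hu_comm hu2 hut
  have hγa : pm γ aC = pm aC γ := (F.comm_iff _ _).1 (hgB _ haB)
  have hγ3 : pm γ (pm γ γ) = (0, 1) := by
    refine F.inj ?_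
    rw [F.mul, F.mul, F.one, ← mul_assoc, ← pow_three', ← hg3, pow_orderOf_eq_one]
  have hγ1 : γ ≠ (0, 1) := fun h => by rw [h, F.one, orderOf_one] at hg3; omega
  have hγt : pm γ tC ≠ pm tC γ := fun h => hgt (mem_centralizer_singleton_iff.2 (by
    rw [← hsig]; exact (F.comm_iff _ _).2 h))
  have hinv : (Φ γ)⁻¹ = Φ (pm γ γ) :=
    inv_eq_of_mul_eq_one_right (by rw [← F.mul, hγ3, F.one])
  have hconj : ∀ a, Φ a ∈ W → a ≠ (0, 1) →
      pm (pm γ a) (pm γ γ) ∈ [tC, u, pm tC u] := by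
    intro a ha ha1
    have h := (mem_normalizer_iff.1 hgN (Φ a)).1 ha
    rw [hinv, ← F.mul, ← F.mul] at h
    rcases hW _ h with h' | h' | h' | h'
    · exfalso
      rw [F.mul, F.mul, ← hinv] at h'
      exact ha1 (F.inj ((conj_eq_one_iff.1 h').trans F.one.symm))
    · rw [F.inj (h'.trans hsig.symm)]; simp
    · rw [F.inj h']; simp
    · rw [← hsig, ← F.mul] at h'
      rw [F.inj h']; simp
  have h1 : pm (pm γ tC) (pm γ γ) ∈ [u, pm tC u] := by
    have h := hconj tC (hsig ▸ d.split.tW)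
      fun h => model_misc.2.1 (congrArg Prod.snd h)
    rcases List.mem_cons.1 h with h | h
    · exfalso
      refine hγt ((F.comm_iff _ _).1 ?_)
      have h' := congrArg Φ h
      rw [F.mul, F.mul, ← hinv, mul_inv_eq_iff_eq_mul] at h'
      exact h'
    · exact h
  have h2 := hconj u hw₀ fun h => hu2 (by rw [h])
  obtain ⟨hu, hγ0, hγf⟩ := outer_three γ hγa hγ3 hγ1 hγt u hmem h1 h2
  let C : Subgroup A5 :=
    { carrier := {σ | ∀ y ∈ B, Commute y (Φ (0, σ))}
      one_mem' := fun y _ => by rw [F.one]; exact Commute.one_right y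
      mul_mem' := fun {σ τ} hσ hτ y hy => by
        rw [← pm_zero, F.mul]; exact (hσ y hy).mul_right (hτ y hy)
      inv_mem' := fun {σ} hσ y hy => by
        have e : Φ (0, σ⁻¹) = (Φ (0, σ))⁻¹ := map_inv (sigHom F) σ
        rw [e]; exact (hσ y hy).inv_right }
  have hcW : ∀ {a : A5}, Φ (0, a) ∈ W → a ∈ C := fun ha y hy => (d.split.comm ha hy).symm
  have hC1 : v1 ∈ C := hcW (show Φ tC ∈ W from hsig.symm ▸ d.split.tW)
  have hC2 : v2 ∈ C := by
    rcases hu with h | h <;> rw [h] at hw₀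
    · exact hcW hw₀
    · have := C.mul_mem hC1 (hcW hw₀)
      rwa [show v1 * (v1 * v2) = v2 by decide +kernel] at this
  have hCγ : γ.2 ∈ C := fun y hy => by
    rw [show (0, γ.2) = γ by rw [← hγ0]]
    exact (hgB y hy).symm
  have hγ3' : γ.2 * (γ.2 * γ.2) = 1 := congrArg Prod.snd hγ3
  have hγ2 : γ.2 ≠ 1 := fun h => hγ1 (Prod.ext hγ0 h)
  intro y hy σ hσ
  obtain ⟨w, hw, j, hj, rfl⟩ := stab_gen γ.2 hγf hγ3' hγ2 σ hσ
  refine (C.mul_mem ?_ ?_ : w * j ∈ C) y hy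
  · simp only [List.mem_cons, List.not_mem_nil, or_false] at hw
    rcases hw with rfl | rfl | rfl | rfl
    exacts [C.one_mem, hC1, hC2, C.mul_mem hC1 hC2]
  · simp only [List.mem_cons, List.not_mem_nil, or_false] at hj
    rcases hj with rfl | rfl | rfl
    exacts [C.one_mem, hCγ, C.mul_mem hCγ hCγ]

/-- The coordinates of the component. -/
theorem exists_beta (F : Frame z Φ) (hsig : Φ tC = t) (d : Data z t f k E A B W) :
    ∃ β : A5 →* G, (∀ x, β x ∈ B) ∧ (∀ y ∈ B, ∃ x, β x = y) ∧ Function.Injective β ∧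
      β v1 = z ∧ β v2 = Φ aC := by
  obtain ⟨ε⟩ := d.split.alt
  have hzB : z ∈ B := d.split.AB d.loc.z_mem
  have haB := a_mem F hsig d
  have hz2 : z * z = 1 := by rw [← pow_two, ← d.loc.hz, pow_orderOf_eq_one]
  have ha2 : Φ aC * Φ aC = 1 := (F.sq_iff _).2 lift_conj.2.1
  have haz : z * Φ aC = Φ aC * z :=
    (mem_centralizer_singleton_iff.1 ((F.range _).2 ⟨aC, rfl⟩)).symm
  have hza : z ≠ Φ aC := fun h => by
    rw [← F.zmap] at h
    exact absurd (congrArg Prod.fst (F.inj h)) (by decide +kernel)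
  have ha1 : Φ aC ≠ 1 := fun h => model_misc.2.2.1 (F.inj (h.trans F.one.symm))
  obtain ⟨σ, h1, h2⟩ := klein_conj (ε ⟨z, hzB⟩) (ε ⟨Φ aC, haB⟩)
    (by rw [← map_mul, MulMemClass.mk_mul_mk]; simp [hz2])
    (by simpa using d.loc.z_ne)
    (by rw [← map_mul, MulMemClass.mk_mul_mk]; simp [ha2])
    (by simpa using ha1)
    (by rw [← map_mul, ← map_mul, MulMemClass.mk_mul_mk, MulMemClass.mk_mul_mk]; simp [haz])
    (fun h => hza (congrArg Subtype.val (ε.injective h)))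
  let e : ↥B ≃* A5 := ε.trans (MulAut.conjNormal σ)
  refine ⟨B.subtype.comp e.symm.toMonoidHom, fun x => (e.symm x).2,
    fun y hy => ⟨e ⟨y, hy⟩, by simp⟩, Subtype.val_injective.comp e.symm.injective, ?_, ?_⟩
  · have : e ⟨z, hzB⟩ = v1 := Subtype.ext (by
      simp only [e, MulEquiv.trans_apply, MulAut.conjNormal_apply]; exact h1)
    simp [← this]
  · have : e ⟨Φ aC, haB⟩ = v2 := Subtype.ext (by
      simp only [e, MulEquiv.trans_apply, MulAut.conjNormal_apply]; exact h2)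
    simp [← this]

/-- A lift of the last generator centralizing the element of order five. -/
theorem exists_lift (F : Frame z Φ) (hsig : Φ tC = t) (d : Data z t f k E A B W) {β : A5 →* G}
    (hB : ∀ x, β x ∈ B) (hinj : Function.Injective β) (hz : β v1 = z) :
    ∃ q : Q0, (q = 0 ∨ q = 27) ∧ Commute (β (valA wu)) (Φ (q, v3)) := by
  classical
  haveI : Fact (Nat.Prime 5) := ⟨by norm_num⟩
  have hfix := comm_fixes F hsig d
  set u := β (valA wu) with hu
  have hu5 : orderOf u = 5 := orderOf_eq_prime (by rw [hu, ← map_pow, wu_facts.2.1, map_one])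
    fun h => wu_facts.2.2 (hinj (h.trans (map_one β).symm))
  have hu5' : u ^ 5 = 1 := by rw [← hu5, pow_orderOf_eq_one]
  set X := centralizer ({u} : Set G) with hX
  obtain ⟨-, φ, hφs, hφk⟩ : _ ∧ ∃ φ : X →* A5, _ := d.split.five_quot d.loc (hB _) hu5
  have hsX : ∀ {σ : A5}, Fixes σ → Φ (0, σ) ∈ X := fun hσ =>
    mem_centralizer_singleton_iff.2 (hfix u (hB _) _ hσ).eq.symm
  have hzu : z * u * z⁻¹ = u⁻¹ := by
    rw [hu, ← hz, ← map_inv, ← map_inv, ← map_mul, ← map_mul, wu_facts.1]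
  have hz2 : z⁻¹ = z := inv_eq_of_mul_eq_one_right (by rw [← pow_two, ← d.loc.hz, pow_orderOf_eq_one])
  have hθmem : ∀ x ∈ X, z * x * z⁻¹ ∈ X := by
    intro x hx
    rw [hX, mem_centralizer_singleton_iff] at hx ⊢
    have hx' : x * u⁻¹ = u⁻¹ * x := (Commute.inv_right hx :)
    have e : u = z * u⁻¹ * z⁻¹ := by rw [← conj_inv, hzu, inv_inv]
    calc z * x * z⁻¹ * u = z * x * z⁻¹ * (z * u⁻¹ * z⁻¹) := by rw [← e]
      _ = z * (x * u⁻¹) * z⁻¹ := by group
      _ = (z * u⁻¹ * z⁻¹) * (z * x * z⁻¹) := by rw [hx']; group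
      _ = u * (z * x * z⁻¹) := by rw [← e]
  let θ : X →* X :=
    { toFun := fun x => ⟨z * x * z⁻¹, hθmem x x.2⟩
      map_one' := Subtype.ext (by simp)
      map_mul' := fun x y => Subtype.ext (by simp) }
  have hker : φ.ker ≤ (φ.comp θ).ker := by
    intro x hx
    rw [MonoidHom.mem_ker, hφk] at hx
    rw [MonoidHom.mem_ker, MonoidHom.comp_apply, hφk]
    obtain ⟨i, hi⟩ := mem_zpowers_iff.1 hx
    refine mem_zpowers_iff.2 ⟨-i, ?_⟩
    show u ^ (-i) = z * (x : G) * z⁻¹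
    rw [← hi, ← conj_zpow, hzu, inv_zpow']
  let θ' : A5 →* A5 := φ.liftOfSurjective hφs ⟨φ.comp θ, hker⟩
  have hθ' : ∀ x, θ' (φ x) = φ (θ x) := fun x =>
    MonoidHom.liftOfRightInverse_comp_apply φ _ _ ⟨φ.comp θ, hker⟩ x
  have hfixed : ∀ {σ : A5} (h : Fixes σ), θ' (φ ⟨_, hsX h⟩) = φ ⟨_, hsX h⟩ := by
    intro σ h
    rw [hθ']
    congr 1
    refine Subtype.ext ?_
    show z * Φ (0, σ) * z⁻¹ = Φ (0, σ)
    rw [← mem_centralizer_singleton_iff.1 ((F.range _).2 ⟨(0, σ), rfl⟩), mul_inv_cancel_right]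
  have hfaith : ∀ {σ : A5} (h : Fixes σ), φ ⟨_, hsX h⟩ = 1 → σ = 1 := by
    intro σ h h1
    rw [hφk] at h1
    obtain ⟨i, hi⟩ := mem_zpowers_iff.1 h1
    obtain ⟨ε⟩ := d.split.alt
    have hmem : Φ (0, σ) ∈ B := by
      show Φ (0, σ) ∈ B
      rw [← show u ^ i = Φ (0, σ) from hi]
      exact zpow_mem (hB _) i
    have := iso_center ε (x := ⟨_, hmem⟩) fun y => Subtype.ext (hfix _ y.2 σ h).eq
    exact congrArg Prod.snd (F.inj ((congrArg Subtype.val this).trans F.one.symm))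
  obtain ⟨hg0, hgf, hgc, hgne, hf1, -, hgg⟩ := wg_facts
  set g₀ := (valC wg).2 with hg₀
  have hgc' : (Φ (0, g₀) * Φ (0, v1) * (Φ (0, g₀))⁻¹) = Φ (0, g₀ * v1 * g₀⁻¹) := by
    simp only [← sigHom_apply F, ← map_inv, ← map_mul]
  have hfix_conj : Fixes (g₀ * v1 * g₀⁻¹) := by
    unfold Fixes at *
    have hinv : ((g₀⁻¹ : A5) : Equiv.Perm (Fin 5)) 4 = 4 := by
      rw [InvMemClass.coe_inv, Equiv.Perm.inv_eq_iff_eq, hgf]
    simp only [Subgroup.coe_mul, Equiv.Perm.mul_apply, hinv, hf1, hgf]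
  set P : A5 := φ ⟨_, hsX hf1⟩ with hP
  set R : A5 := φ ⟨_, hsX hgf⟩ with hR
  have hRP : R * P * R⁻¹ = φ ⟨_, hsX hfix_conj⟩ := by
    rw [hP, hR, ← map_inv, ← map_mul, ← map_mul]
    exact congrArg φ (Subtype.ext hgc')
  have hid : ∀ x, θ' x = x := by
    refine fix_all (MulEquiv.refl A5) θ' (a := P) (b := R) ?_ ?_ ?_ ?_ (hfixed hf1) (hfixed hgf)
    · rw [hP, ← map_mul]
      refine (congrArg φ (Subtype.ext ?_)).trans (map_one φ)
      show Φ (0, v1) * Φ (0, v1) = 1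
      exact (F.sq_iff _).2 (by decide +kernel)
    · exact fun h => model_misc.2.2.2.2.2.2.2.1 (hfaith hf1 h)
    · rw [hRP, hP, ← map_mul, ← map_mul]
      refine congrArg φ (Subtype.ext ?_)
      show Φ (0, g₀ * v1 * g₀⁻¹) * Φ (0, v1) = Φ (0, v1) * Φ (0, g₀ * v1 * g₀⁻¹)
      rw [← F.mul, ← F.mul, pm_zero, pm_zero, hgc]
    · intro h
      rw [hRP] at h
      refine hgne ?_
      have h1 : Fixes (g₀ * v1 * g₀⁻¹ * v1⁻¹) := by
        unfold Fixes at *
        have hinv : ((v1⁻¹ : A5) : Equiv.Perm (Fin 5)) 4 = 4 := by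
          rw [InvMemClass.coe_inv, Equiv.Perm.inv_eq_iff_eq, hf1]
        simp only [Subgroup.coe_mul, Equiv.Perm.mul_apply] at hfix_conj ⊢
        rw [hinv, hfix_conj]
      refine mul_inv_eq_one.1 (hfaith h1 ?_)
      have e : (⟨_, hsX h1⟩ : X) = ⟨_, hsX hfix_conj⟩ * (⟨_, hsX hf1⟩ : X)⁻¹ := Subtype.ext (by
        show Φ (0, g₀ * v1 * g₀⁻¹ * v1⁻¹) = Φ (0, g₀ * v1 * g₀⁻¹) * (Φ (0, v1))⁻¹
        simp only [← sigHom_apply F, map_mul, map_inv])
      rw [e, map_mul, map_inv, h, mul_inv_cancel]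
  -- the complement
  let K : Subgroup G := X ⊓ centralizer ({z} : Set G)
  let ψ : K →* A5 := φ.comp (inclusion inf_le_left)
  have hψs : Function.Surjective ψ := by
    intro σ
    obtain ⟨x, rfl⟩ := hφs σ
    have h := hid (φ x)
    rw [hθ'] at h
    obtain ⟨i, hi⟩ : ∃ i : ℕ, z * (x : G) * z⁻¹ = x * u ^ i := by
      have h1 : φ (x⁻¹ * θ x) = 1 := by rw [map_mul, map_inv, h, inv_mul_cancel]
      rw [hφk] at h1
      obtain ⟨i, hi⟩ := mem_powers_iff_mem_zpowers.2 h1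
      refine ⟨i, ?_⟩
      show z * (x : G) * z⁻¹ = x * u ^ i
      rw [show u ^ i = (x : G)⁻¹ * (z * x * z⁻¹) from hi]
      group
    have hpow : z * u ^ (3 * i) * z⁻¹ = (u⁻¹) ^ (3 * i) := by rw [← conj_pow, hzu]
    have hh : u ^ i * (u ^ (3 * i))⁻¹ = u ^ (3 * i) := by
      rw [mul_inv_eq_iff_eq_mul, ← pow_add]
      exact pow_eq_pow_iff_modEq.2 (by rw [hu5, Nat.ModEq]; omega)
    have hy : (x : G) * u ^ (3 * i) ∈ K := by
      refine ⟨mul_mem x.2 (pow_mem (mem_centralizer_singleton_iff.2 rfl) _),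
        mem_centralizer_singleton_iff.2 ?_⟩
      have e : z * ((x : G) * u ^ (3 * i)) * z⁻¹ = x * u ^ (3 * i) := by
        calc z * ((x : G) * u ^ (3 * i)) * z⁻¹
            = z * x * z⁻¹ * (z * u ^ (3 * i) * z⁻¹) := by group
          _ = x * (u ^ i * (u⁻¹) ^ (3 * i)) := by rw [hi, hpow, mul_assoc]
          _ = x * u ^ (3 * i) := by rw [inv_pow, hh]
      exact (mul_inv_eq_iff_eq_mul.1 e).symm
    refine ⟨⟨_, hy⟩, ?_⟩
    show φ ⟨(x : G) * u ^ (3 * i), hy.1⟩ = φ x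
    have hux : (u : G) ∈ X := mem_centralizer_singleton_iff.2 rfl
    rw [show (⟨(x : G) * u ^ (3 * i), hy.1⟩ : X) = x * ⟨u, hux⟩ ^ (3 * i) from Subtype.ext (by simp),
      map_mul, map_pow, (hφk ⟨u, hux⟩).2 (mem_zpowers u), one_pow, mul_one]
  have hψi : Function.Injective ψ := by
    rw [injective_iff_map_eq_one]
    intro x hx
    have hx' := (hφk _).1 hx
    obtain ⟨i, hi⟩ := mem_powers_iff_mem_zpowers.2 hx'
    have hi' : u ^ i = (x : G) := hi
    have h1 : z * u ^ i * z⁻¹ = u ^ i := by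
      rw [hi', ← mem_centralizer_singleton_iff.1 x.2.2, mul_inv_cancel_right]
    rw [← conj_pow, hzu, inv_pow, inv_eq_iff_mul_eq_one, ← pow_add] at h1
    have h2 := orderOf_dvd_of_pow_eq_one h1
    rw [hu5] at h2
    have h3 : orderOf u ∣ i := hu5.symm ▸ by omega
    exact Subtype.ext (by rw [← hi', orderOf_dvd_iff_pow_eq_one.1 h3]; rfl)
  let e : K ≃* A5 := MulEquiv.ofBijective ψ ⟨hψi, hψs⟩
  choose inv hinv using fun x : K => (F.range (x : G)).1 x.2.2
  let π : K →* A5 :=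
    { toFun := fun x => (inv x).2
      map_one' := congrArg Prod.snd (F.inj ((hinv 1).trans F.one.symm))
      map_mul' := fun x y => congrArg Prod.snd
        (F.inj ((hinv (x * y)).trans (by rw [F.mul, hinv, hinv]; rfl)) :
          inv (x * y) = pm (inv x) (inv y)) }
  have hπi : Function.Injective π := by
    haveI : IsSimpleGroup A5 := alternatingGroup.isSimpleGroup_five
    let lam : A5 →* A5 := π.comp e.symm.toMonoidHom
    suffices hl : Function.Injective lam by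
      have : (π : K → A5) = lam ∘ e := by funext x; simp [lam]
      rw [this]
      exact hl.comp e.injective
    rcases (inferInstance : lam.ker.Normal).eq_bot_or_eq_top with h | h
    · exact (MonoidHom.ker_eq_bot_iff _).1 h
    · exfalso
      have htK : t ∈ K := ⟨hsig ▸ hsX hf1, d.loc.tz⟩
      have := MonoidHom.mem_ker.1 (h ▸ mem_top (e ⟨t, htK⟩) : e ⟨t, htK⟩ ∈ lam.ker)
      simp only [lam, MonoidHom.comp_apply, MulEquiv.coe_toMonoidHom, MulEquiv.symm_apply_apply] at this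
      have h' : inv ⟨t, htK⟩ = tC := F.inj ((hinv _).trans hsig.symm)
      exact model_misc.2.1 (by rw [← h']; exact this)
  have hπs : Function.Surjective π := by
    have hc : Nat.card K = Nat.card A5 := Nat.card_congr e.toEquiv
    exact ((Nat.bijective_iff_injective_and_card π).2 ⟨hπi, hc⟩).2
  obtain ⟨x, hx⟩ := hπs v3
  have hxe : (x : G) = Φ ((inv x).1, v3) := by
    rw [← hinv x, ← hx]; rfl
  refine ⟨(inv x).1, lift_cases _ fun σ hσ k _ hpow => ?_,
    hxe ▸ (mem_centralizer_singleton_iff.1 x.2.1).symm⟩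
  have hsK : Φ (0, σ) ∈ K := ⟨hsX hσ, (F.range _).2 ⟨_, rfl⟩⟩
  have hπσ : π ⟨_, hsK⟩ = σ := congrArg Prod.snd (F.inj (hinv ⟨_, hsK⟩) : inv ⟨_, hsK⟩ = (0, σ))
  have h1 : (x * ⟨_, hsK⟩) ^ k = 1 := hπi (by rw [map_pow, map_mul, hx, hπσ, hpow, map_one])
  refine F.inj ?_
  rw [F.ppow_map, F.mul, F.one, ← hxe]
  simpa using congrArg Subtype.val h1

/-- The image of the inner element moved by the component. -/
theorem exists_pattern (F : Frame z Φ) (hsig : Φ tC = t) (d : Data z t f k E A B W) :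
    ∃ P : Pattern G, P.φ = Φ ∧ (∀ y ∈ B, ∃ x, P.β x = y) := by
  have hfix := comm_fixes F hsig d
  have hzC : ∀ a, Commute z (Φ a) := fun a =>
    (mem_centralizer_singleton_iff.1 ((F.range _).2 ⟨a, rfl⟩) : Φ a * z = z * Φ a).symm
  obtain ⟨β, hB, hs, hz, ha, hu⟩ : ∃ β : A5 →* G, (∀ x, β x ∈ B) ∧ (∀ y ∈ B, ∃ x, β x = y) ∧
      β v1 = z ∧ β v2 = Φ aC ∧ Commute (β (valA wu)) (Φ (0, v3)) := by
    obtain ⟨β, hB, hs, hi, hz, ha⟩ := exists_beta F hsig d
    obtain ⟨q, hq, hc⟩ := exists_lift F hsig d hB hi hz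
    rcases hq with rfl | rfl
    · exact ⟨β, hB, hs, hz, ha, hc⟩
    refine ⟨β.comp (MulAut.conj v2).toMonoidHom, fun x => hB _, fun y hy => ?_, ?_, ?_, ?_⟩
    · obtain ⟨x, hx⟩ := hs y hy
      exact ⟨(MulAut.conj v2).symm x, by simp only [MonoidHom.comp_apply, MulEquiv.coe_toMonoidHom,
        MulEquiv.apply_symm_apply, hx]⟩
    · simp only [MonoidHom.comp_apply, MulEquiv.coe_toMonoidHom, MulAut.conj_apply,
        lift_conj.2.2.1, hz]
    · simp only [MonoidHom.comp_apply, MulEquiv.coe_toMonoidHom, MulAut.conj_apply,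
        lift_conj.2.2.2, ha]
    · have e : Φ (0, v3) = Φ aC * Φ (27, v3) * (Φ aC)⁻¹ := by
        rw [phi_sq_inv F lift_conj.2.1, ← F.mul, ← F.mul, lift_conj.1]
      simp only [MonoidHom.comp_apply, MulEquiv.coe_toMonoidHom, MulAut.conj_apply, map_mul,
        map_inv, ha, e]
      exact hc.map (MulAut.conj (Φ aC))
  obtain ⟨hg0, hgf, -, -, hf1, hf2, hgg⟩ := wg_facts
  have hgv : valC wg = (0, (valC wg).2) := Prod.ext hg0 rfl
  have hcm : ∀ x, ∀ {σ : A5}, Fixes σ → Commute (β x) (Φ (0, σ)) := fun x σ hσ =>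
    hfix _ (hB x) σ hσ
  obtain ⟨hk1, hk2, hk3, hk4⟩ := wk_facts
  set b := β (valA wb) with hb
  let γ : G →* G := (MulAut.conj b).toMonoidHom
  have hγ : ∀ y, γ y = b * y * b⁻¹ := fun y => rfl
  have hbz : γ z = Φ aC := by
    rw [hγ, hb, ← hz, ← map_inv, ← map_mul, ← map_mul, wb_facts.1, ha]
  have hba : γ (Φ aC) = z * Φ aC := by
    rw [hγ, hb, ← ha, ← hz, ← map_inv, ← map_mul, ← map_mul, ← map_mul, wb_facts.2]
  have hbfix : ∀ {σ : A5}, Fixes σ → γ (Φ (0, σ)) = Φ (0, σ) := fun {σ} hσ => by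
    rw [hγ, (hcm _ hσ).eq, mul_inv_cancel_right]
  have hbt : γ (Φ tC) = Φ tC := hbfix (σ := v1) hf1
  set x := γ (Φ (valC wk)) with hx
  have hxa : Commute x (Φ aC) := by
    rw [← hbz]
    exact (hzC (valC wk)).symm.map γ
  have hxza : Commute x (z * Φ aC) := by
    rw [← hba]
    exact (show Commute (Φ (valC wk)) (Φ aC) from (F.comm_iff _ _).2 hk1).map γ
  have hxz : Commute x z := by
    have h := hxza.mul_right hxa
    rwa [mul_assoc, (F.sq_iff _).2 lift_conj.2.1, mul_one] at h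
  obtain ⟨kk, hkk⟩ := (F.range x).1 (mem_centralizer_singleton_iff.2 hxz.eq)
  have hkke : kk = valC wkk := by
    refine wkk_unique kk ((F.comm_iff _ _).1 (hkk ▸ hxa.eq)) (F.inj ?_) (F.inj ?_) (F.inj ?_)
    · rw [F.mul, hkk, F.one, hx, ← map_mul, ← F.mul, hk2, F.one, map_one]
    · rw [F.mul, F.mul, hkk, hx]
      conv_lhs => rw [← hbt]
      rw [← map_mul, ← map_mul, ← F.mul, ← F.mul, hk3, F.mul, map_mul, hbt, F.zmap, hbz, ← F.mul]
    · rw [F.mul, F.mul, F.mul, F.mul, hkk, hx]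
      conv_lhs => rw [hgv, ← hbfix hgf]
      rw [← map_mul, ← map_mul, ← map_mul, ← map_mul, ← hgv, ← F.mul, ← F.mul, ← F.mul, ← F.mul,
        hk4, F.mul, map_mul, hba, hbfix hgg, ← F.zmap, ← F.mul, model_misc.1, ← F.mul]
  refine ⟨⟨Φ, β, F.mul, hz.trans F.zmap.symm, ha, hcm v3 hf1, hcm v3 hf2, ?_, ?_, hu⟩, rfl, hs⟩
  · rw [hgv]; exact hcm v3 hgf
  · rw [← hb, ← hkke, hkk, hx, hγ]

end Cfsg.Agent.H30.J2U
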