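import Cfsg.Agent.H30.J2U.Frame

/-!
# The pattern of generators generates a group of Hall–Janko type

Both centralizers of involutions lie in the generated subgroup, so a Sylow subgroup fixes one coset
and acts freely on the others.
-/

set_option autoImplicit false
set_option linter.style.haveILetI false
set_option maxHeartbeats 1000000

namespace Cfsg.Agent.H30.J2U

open Subgroup Cfsg.Agent.H59.HJ

theorem A5_closure {U : Subgroup A5} (h1 : v1 ∈ U) (h2 : v2 ∈ U) (h3 : v3 ∈ U) : U = ⊤ := by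
  classical
  have hgen : ∀ k, k < 3 → genA k ∈ U := fun k hk => by interval_cases k <;> assumption
  have hw : ∀ w : List ℕ, (∀ k ∈ w, k < 3) → valA w ∈ U := fun w hw => list_prod_mem fun x hx => by
    obtain ⟨k, hk, rfl⟩ := List.mem_map.mp hx
    exact hgen k (hw k hk)
  have d4 : 4 ∣ Nat.card U := by
    let V : Subgroup A5 :=
      { carrier := {x | x ∈ [1, v1, v2, v1 * v2]}
        one_mem' := by simp
        mul_mem' := fun {a b} ha hb => (by decide +kernel :
          ∀ a ∈ [1, v1, v2, v1 * v2], ∀ b ∈ [1, v1, v2, v1 * v2],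
            a * b ∈ [1, v1, v2, v1 * v2]) a ha b hb
        inv_mem' := fun {a} ha => (by decide +kernel :
          ∀ a ∈ [1, v1, v2, v1 * v2], a⁻¹ ∈ [1, v1, v2, v1 * v2]) a ha }
    have hV : Nat.card V = 4 := by
      show Nat.card {x // x ∈ [1, v1, v2, v1 * v2]} = 4
      rw [Nat.card_eq_fintype_card]; decide +kernel
    refine hV ▸ Subgroup.card_dvd_of_le ?_
    intro x (hx : x ∈ [1, v1, v2, v1 * v2])
    simp only [List.mem_cons, List.not_mem_nil, or_false] at hx
    rcases hx with rfl | rfl | rfl | rfl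
    exacts [one_mem _, h1, h2, mul_mem h1 h2]
  have d3 : 3 ∣ Nat.card U := by
    rw [← orderOf_eq_prime (hp := ⟨Nat.prime_three⟩) (show (valA wb) ^ 3 = 1 by decide +kernel)
      (show valA wb ≠ 1 by decide +kernel)]
    exact orderOf_dvd_natCard U (hw wb (by decide))
  have d5 : 5 ∣ Nat.card U := by
    have h := orderOf_dvd_natCard U (hw wu (by decide))
    rwa [orderOf_eq_prime (hp := ⟨(by norm_num : Nat.Prime 5)⟩) wu_facts.2.1 wu_facts.2.2] at h
  refine eq_top_of_le_card U ?_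
  rw [card_A5]
  refine Nat.le_of_dvd Nat.card_pos ?_
  omega

theorem stepQ_mem {S : Set Q0} (hmul : ∀ x ∈ S, ∀ y ∈ S, mulQ x y ∈ S) (e : ℕ) {g x : Q0}
    (hg : g ∈ S) (hx : x ∈ S) : stepQ e g x ∈ S := by
  unfold stepQ
  split
  exacts [hx, hmul x hx g hg]

theorem conj_inner : ∀ i : Fin 5, ∃ σ : A5, pm (0, σ) (15, 1) = pm (gen i, 1) (0, σ) := by
  decide +kernel

theorem inner_to_a : ∀ x : Q0, mulQ x x = 0 → x ≠ 0 → x ≠ zQ →
    ∃ σ : A5, ∃ q : Q0, pm (q, σ) (x, 1) = pm aC (q, σ) := by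
  decide +kernel

variable {G : Type*} [Group G] [Finite G] {z t f k : G} {Φ : Q0 × A5 → G}
  {E A B W : Subgroup G}

/-- The generators generate. -/
theorem closure_eq_top (F : Frame z Φ) (hsig : Φ tC = t) (d : Data z t f k E A B W)
    (P : Pattern G) (hφ : P.φ = Φ) (hsB : ∀ y ∈ B, ∃ x, P.β x = y) :
    Subgroup.closure (Set.range P.gen) = ⊤ := by
  classical
  haveI : Fact (Nat.Prime 2) := ⟨Nat.prime_two⟩
  subst hφ
  set U := Subgroup.closure (Set.range P.gen) with hU
  have hgen : ∀ k, P.gen k ∈ U := fun k => subset_closure ⟨k, rfl⟩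
  have hgenC : ∀ k, k < 4 → P.φ (genC k) ∈ U := fun k hk => by
    have := hgen k
    rwa [Pattern.gen, if_neg (by omega)] at this
  have hwC : ∀ w : List ℕ, (∀ k ∈ w, k < 4) → P.φ (valC w) ∈ U := fun w hw => by
    rw [← P.prodC w hw]
    exact list_prod_mem fun x hx => by
      obtain ⟨k, -, rfl⟩ := List.mem_map.mp hx
      exact hgen k
  -- the centralizer of `z`
  have hσ : ∀ σ : A5, P.φ (0, σ) ∈ U := by
    have h : U.comap (sigHom F) = ⊤ :=
      A5_closure (hgenC 0 (by norm_num)) (hgenC 1 (by norm_num)) (hgenC 2 (by norm_num))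
    exact fun σ => (h ▸ mem_top σ : σ ∈ U.comap (sigHom F))
  have hz : z ∈ U := by
    rw [← F.zmap, ← wz_value]; exact hwC wz (by decide)
  have hQ : ∀ x : Q0, P.φ (x, 1) ∈ U := by
    set S : Set Q0 := {x | P.φ (x, 1) ∈ U}
    have hmul : ∀ x ∈ S, ∀ y ∈ S, mulQ x y ∈ S := fun x hx y hy => by
      show P.φ (mulQ x y, 1) ∈ U
      rw [← F.inner_mul]; exact mul_mem hx hy
    have hg : ∀ i, Cfsg.Agent.H59.HJ.gen i ∈ S := fun i => by
      obtain ⟨σ, hσi⟩ := conj_inner i
      show P.φ (Cfsg.Agent.H59.HJ.gen i, 1) ∈ U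
      have e := congrArg P.φ hσi
      rw [F.mul, F.mul, ← mul_inv_eq_iff_eq_mul] at e
      rw [← e]
      exact mul_mem (mul_mem (hσ σ) (hgenC 3 (by norm_num))) (inv_mem (hσ σ))
    have hz' : zQ ∈ S := show P.φ (zQ, 1) ∈ U by rw [F.zmap]; exact hz
    have h0 : (0 : Q0) ∈ S := show P.φ (0, 1) ∈ U by rw [F.one]; exact one_mem _
    intro y
    have h := stepQ_mem hmul (bit y 4) hz' (stepQ_mem hmul (bit y 3) (hg 3)
      (stepQ_mem hmul (bit y 2) (hg 2) (stepQ_mem hmul (bit y 1) (hg 1)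
        (stepQ_mem hmul (bit y 0) (hg 0) h0))))
    rw [step_all 0 y, (mulQ_cancel y).1] at h
    exact h
  have hCz : centralizer ({z} : Set G) ≤ U := by
    intro g hg
    obtain ⟨⟨x, σ⟩, rfl⟩ := (F.range g).1 hg
    have e : pm (x, 1) (0, σ) = (x, σ) :=
      Prod.ext (by
        show mulQ x (actQ 1 0) = x
        rw [actQ_one]
        exact (by decide +kernel : ∀ y : Q0, mulQ y 0 = y) x) (one_mul σ)
    rw [← e, F.mul]
    exact mul_mem (hQ x) (hσ σ)
  -- the component
  have hβ : ∀ x, P.β x ∈ U := by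
    have h : U.comap P.β = ⊤ := by
      refine A5_closure ?_ ?_ ?_ <;> rw [mem_comap]
      · rw [P.hz]; exact hQ _
      · rw [P.ha]; exact hQ _
      · simpa [Pattern.gen] using hgen 4
    exact fun x => (h ▸ mem_top x : x ∈ U.comap P.β)
  have hBU : B ≤ U := fun y hy => by
    obtain ⟨x, rfl⟩ := hsB y hy
    exact hβ x
  have hCt : centralizer ({t} : Set G) ≤ U := by
    intro g hg
    obtain ⟨w, hw, y, hy, rfl⟩ := d.split.exists_mul hg
    exact mul_mem (hCz ((d.loc.memE _).1 (d.split.WE hw)).1) (hBU hy)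
  -- fusion of involutions inside `U`
  obtain ⟨S, hS⟩ := F.sylow
  have hSU : (S : Subgroup G) ≤ U := hS.trans hCz
  have hfus : ∀ j ∈ U, orderOf j = 2 →
      ∃ h ∈ U, h * j * h⁻¹ = z ∨ h * j * h⁻¹ = t := by
    intro j hj hj2
    obtain ⟨T, hT⟩ := (IsPGroup.of_card (p := 2) (n := 1) (G := zpowers (⟨j, hj⟩ : U))
      (by rw [Nat.card_zpowers, Subgroup.orderOf_mk, hj2, pow_one])).exists_le_sylow
    obtain ⟨v, hv⟩ := MulAction.exists_smul_eq U T (S.subtype hSU)
    have hmem : v * (⟨j, hj⟩ : U) * v⁻¹ ∈ (S.subtype hSU : Subgroup U) := by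
      rw [← hv, Sylow.coe_subgroup_smul]
      exact ⟨_, hT (mem_zpowers _), rfl⟩
    rw [Sylow.coe_subtype, mem_subgroupOf] at hmem
    obtain ⟨a, ha⟩ := (F.range _).1 (hS hmem)
    simp only [Subgroup.coe_mul, InvMemClass.coe_inv] at ha
    have ha2 : orderOf (P.φ a) = 2 := by rw [ha, orderOf_conj, hj2]
    have hsq : pm a a = (0, 1) := (F.sq_iff a).1 (by rw [← pow_two, ← ha2, pow_orderOf_eq_one])
    by_cases h1 : a.2 = 1
    · obtain ⟨x, σ⟩ := a
      dsimp only at h1
      subst h1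
      have hx : mulQ x x = 0 := by simpa [pm, actQ_one] using congrArg Prod.fst hsq
      have hx0 : x ≠ 0 := by
        rintro rfl
        rw [F.one, orderOf_one] at ha2
        omega
      by_cases hxz : x = zQ
      · subst hxz
        exact ⟨v, v.2, Or.inl (ha.symm.trans F.zmap)⟩
      obtain ⟨σ, q, hq⟩ := inner_to_a x hx hx0 hxz
      set b := P.β (valA wb) with hb
      have hbz : b * z * b⁻¹ = P.φ aC := by
        rw [hb, ← F.zmap, ← P.hz, ← map_inv, ← map_mul, ← map_mul, wb_facts.1, P.ha]; rfl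
      have e := congrArg P.φ hq
      rw [F.mul, F.mul, ← mul_inv_eq_iff_eq_mul] at e
      refine ⟨b⁻¹ * P.φ (q, σ) * v,
        mul_mem (mul_mem (inv_mem (hβ _)) (hCz ((F.range _).2 ⟨_, rfl⟩))) v.2, Or.inl ?_⟩
      calc b⁻¹ * P.φ (q, σ) * (v : G) * j * (b⁻¹ * P.φ (q, σ) * (v : G))⁻¹
          = b⁻¹ * (P.φ (q, σ) * ((v : G) * j * (v : G)⁻¹) * (P.φ (q, σ))⁻¹) * b := by group
        _ = z := by rw [← ha, e, ← hbz]; group
    · obtain ⟨c, hc, hc'⟩ := F.outer_conj hsq h1
      refine ⟨c * v, mul_mem (hCz hc) v.2, Or.inr ?_⟩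
      calc c * (v : G) * j * (c * (v : G))⁻¹ = c * ((v : G) * j * (v : G)⁻¹) * c⁻¹ := by group
        _ = t := by rw [← ha, hc', ← hsig]; rfl
  -- an involution of `U` fixes only one coset
  have hone : ∀ s ∈ U, orderOf s = 2 → ∀ x : G, x⁻¹ * s * x ∈ U → x ∈ U := by
    intro s hs hs2 x hx
    have hx2 : orderOf (x⁻¹ * s * x) = 2 := by
      rw [show x⁻¹ * s * x = x⁻¹ * s * x⁻¹⁻¹ by rw [inv_inv], orderOf_conj, hs2]
    obtain ⟨h, hh, he⟩ := hfus s hs hs2
    obtain ⟨g, hg, hg'⟩ := hfus _ hx hx2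
    set y := h * x * g⁻¹ with hy
    have hxy : x = h⁻¹ * y * g := by rw [hy]; group
    suffices y ∈ U by rw [hxy]; exact mul_mem (mul_mem (inv_mem hh) this) hg
    have hrel : y * (g * (x⁻¹ * s * x) * g⁻¹) * y⁻¹ = h * s * h⁻¹ := by rw [hy]; group
    rcases he with he | he <;> rcases hg' with hg' | hg' <;> rw [he, hg'] at hrel
    · exact hCz (mem_centralizer_singleton_iff.2 (mul_inv_eq_iff_eq_mul.1 hrel))
    · exact absurd (isConj_iff.2 ⟨y, hrel⟩) d.loc.nc
    · exact absurd (isConj_iff.2 ⟨y, hrel⟩ : IsConj z t).symm d.loc.nc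
    · exact hCt (mem_centralizer_singleton_iff.2 (mul_inv_eq_iff_eq_mul.1 hrel))
  -- counting cosets
  have hG : Nat.card G = 604800 := d.loc.card_G d.split
  obtain ⟨c, hc⟩ : 1920 ∣ Nat.card U := d.loc.cardC ▸ Subgroup.card_dvd_of_le hCz
  have hidx : U.index * c = 315 := by
    have := U.card_mul_index
    rw [hc, hG] at this
    linarith
  set q₀ : G ⧸ U := ((1 : G) : G ⧸ U)
  have hfix : ∀ s ∈ (S : Subgroup G), ∀ x : G, (s • (x : G ⧸ U)) = x → x⁻¹ * s * x ∈ U := by
    intro s _ x hx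
    rw [MulAction.Quotient.smul_coe, smul_eq_mul, QuotientGroup.eq] at hx
    have := U.inv_mem hx
    rwa [mul_inv_rev, inv_inv, ← mul_assoc] at this
  have hq₀ : ∀ s ∈ (S : Subgroup G), s • q₀ = q₀ := fun s hs => by
    rw [MulAction.Quotient.smul_coe, smul_eq_mul, mul_one, QuotientGroup.eq, mul_one]
    exact U.inv_mem (hSU hs)
  let X := {q : G ⧸ U // q ≠ q₀}
  letI act : MulAction (S : Subgroup G) X :=
    { smul := fun s q => ⟨(s : G) • q.1, fun h => q.2 (by
        have := congrArg (fun r => ((s : G)⁻¹) • r) h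
        simp only [inv_smul_smul] at this
        rw [this, hq₀ _ (inv_mem s.2)])⟩
      one_smul := fun q => Subtype.ext (one_smul G q.1)
      mul_smul := fun s r q => Subtype.ext (mul_smul (s : G) (r : G) q.1) }
  have hfree : ∀ q : X, MulAction.stabilizer (S : Subgroup G) q = ⊥ := by
    intro q
    rw [eq_bot_iff]
    intro s hs
    rw [mem_bot]
    by_contra hs1
    obtain ⟨j, hj, hj2⟩ : ∃ j ∈ MulAction.stabilizer (S : Subgroup G) q, orderOf j = 2 := by
      obtain ⟨n, hn⟩ := IsPGroup.iff_orderOf.1 S.isPGroup' s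
      obtain ⟨m, rfl⟩ : ∃ m, n = m + 1 := Nat.exists_eq_succ_of_ne_zero fun h0 => hs1 (by
        rw [← orderOf_eq_one_iff, hn, h0, pow_zero])
      exact ⟨s ^ 2 ^ m, pow_mem hs _, by
        rw [orderOf_pow' s (by positivity), hn, Nat.gcd_eq_right (pow_dvd_pow 2 (Nat.le_succ m)),
          Nat.pow_div (Nat.le_succ m) two_pos]; simp⟩
    obtain ⟨⟨x⟩, hq⟩ := q
    have hx : x⁻¹ * (j : G) * x ∈ U :=
      hfix _ j.2 x (congrArg Subtype.val (MulAction.mem_stabilizer_iff.1 hj))
    have hxU := hone (j : G) (hSU j.2) (by rw [Subgroup.orderOf_coe, hj2]) x hx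
    exact hq (QuotientGroup.eq.2 (by simpa using hxU))
  have h128 : 128 ∣ Nat.card X := by
    rw [Nat.card_congr (MulAction.selfEquivOrbitsQuotientProd hfree), Nat.card_prod]
    refine Dvd.dvd.mul_left ?_ _
    exact (show 128 = 2 ^ 7 by norm_num) ▸ S.pow_dvd_card_of_pow_dvd_card (n := 7)
      (by rw [hG]; norm_num)
  have hX : Nat.card X + 1 = U.index := by
    rw [Subgroup.index_eq_card, Nat.card_congr (Equiv.optionSubtypeNe q₀).symm, Finite.card_option]
  refine Subgroup.index_eq_one.1 ?_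
  obtain ⟨m, hm⟩ := h128
  have h315 : U.index ∣ 315 := Dvd.intro c hidx
  have hle : U.index ≤ 315 := Nat.le_of_dvd (by norm_num) h315
  have hm3 : m < 3 := by omega
  rw [← hX, hm]
  rw [← hX, hm] at h315
  interval_cases m <;> first | omega | norm_num at h315

end Cfsg.Agent.H30.J2U
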