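import Cfsg.Agent.H30.J2U.Generation
import Cfsg.Agent.H30.J2U.Check

/-!
# Two groups of Hall–Janko type are isomorphic
-/

set_option autoImplicit false
set_option linter.style.haveILetI false

namespace Cfsg.Agent.H30.J2U

open Subgroup Cfsg.Agent.H59.HJ

theorem cert_words : Cert.data.words = allWords ∧ Cert.data.nrel = rels.length := by
  decide +kernel

/-- A generating pattern in a group of Hall–Janko type. -/
theorem exists_generating {G : Type*} [Group G] [Finite G] {z t f k : G} {E A B W : Subgroup G}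
    {Φ : Q0 × A5 → G} (F : Frame z Φ) (d : Data z t f k E A B W) :
    Nat.card G = 604800 ∧ ∃ P : Pattern G, Subgroup.closure (Set.range P.gen) = ⊤ := by
  refine ⟨d.loc.card_G d.split, ?_⟩
  have ht0 : orderOf (Φ tC) = 2 := by
    refine orderOf_two ((F.sq_iff _).2 (by decide +kernel)) fun h => ?_
    exact model_misc.2.1 (congrArg Prod.snd (F.inj (h.trans F.one.symm)))
  obtain ⟨c, hc, hct⟩ := d.loc.fuse (Φ tC) ((F.range _).2 ⟨_, rfl⟩)
    ((d.loc.cases _ ht0).resolve_left F.not_conj)
  have F' := frame_conj F hc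
  obtain ⟨P, hP, hs⟩ := exists_pattern F' hct d
  exact ⟨P, closure_eq_top F' hct d P hP hs⟩

/-- The product of two patterns. -/
def Pattern.prod {G H : Type*} [Group G] [Group H] (P : Pattern G) (R : Pattern H) :
    Pattern (G × H) where
  φ a := (P.φ a, R.φ a)
  β := P.β.prod R.β
  mul a b := Prod.ext (P.mul a b) (R.mul a b)
  hz := Prod.ext P.hz R.hz
  ha := Prod.ext P.ha R.ha
  comm0 := Prod.ext P.comm0.eq R.comm0.eq
  comm1 := Prod.ext P.comm1.eq R.comm1.eq
  commg := Prod.ext P.commg.eq R.commg.eq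
  conjk := Prod.ext P.conjk R.conjk
  commu := Prod.ext P.commu.eq R.commu.eq

/-- Two groups of Hall–Janko type are isomorphic. -/
theorem nonempty_mulEquiv {G H : Type*} [Group G] [Finite G] [Group H] [Finite H]
    {z t f k : G} {E A B W : Subgroup G} {Φ : Q0 × A5 → G} (F : Frame z Φ)
    (d : Data z t f k E A B W) {z' t' f' k' : H} {E' A' B' W' : Subgroup H} {Ψ : Q0 × A5 → H}
    (F' : Frame z' Ψ) (d' : Data z' t' f' k' E' A' B' W') : Nonempty (G ≃* H) := by
  obtain ⟨hG, P, hP⟩ := exists_generating F d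
  obtain ⟨hH, R, hR⟩ := exists_generating F' d'
  obtain ⟨-, hle⟩ := (P.prod R).card_le Cert.valid cert_words.1 rfl cert_words.2
  set D := Subgroup.closure (Set.range (P.prod R).gen)
  set p := (MonoidHom.fst G H).comp D.subtype
  set q := (MonoidHom.snd G H).comp D.subtype
  have hgen : ∀ j, (P.prod R).gen j = (P.gen j, R.gen j) := fun j => by
    unfold Pattern.gen
    split <;> rfl
  have hpS : Function.Surjective p := by
    rw [← MonoidHom.range_eq_top, eq_top_iff, ← hP, Subgroup.closure_le]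
    rintro _ ⟨j, rfl⟩
    exact ⟨⟨_, Subgroup.subset_closure ⟨j, rfl⟩⟩, congrArg Prod.fst (hgen j)⟩
  have hqS : Function.Surjective q := by
    rw [← MonoidHom.range_eq_top, eq_top_iff, ← hR, Subgroup.closure_le]
    rintro _ ⟨j, rfl⟩
    exact ⟨⟨_, Subgroup.subset_closure ⟨j, rfl⟩⟩, congrArg Prod.snd (hgen j)⟩
  have hn : Cert.data.n = 315 := rfl
  rw [hn] at hle
  have hcp : Nat.card D = Nat.card G :=
    le_antisymm (by rw [hG]; omega) (Nat.card_le_card_of_surjective p hpS)
  have hcq : Nat.card D = Nat.card H :=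
    le_antisymm (by rw [hH]; omega) (Nat.card_le_card_of_surjective q hqS)
  exact ⟨(MulEquiv.ofBijective p ((Nat.bijective_iff_surjective_and_card p).mpr ⟨hpS, hcp⟩)).symm.trans
    (MulEquiv.ofBijective q ((Nat.bijective_iff_surjective_and_card q).mpr ⟨hqS, hcq⟩))⟩

end Cfsg.Agent.H30.J2U
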