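import Cfsg.Agent.H30.J2U.Words
import Cfsg.Agent.H59.HJ.ModelCount

/-!
# Finite checks in the model of the centralizer of an inner involution of the Hall–Janko group
-/

set_option autoImplicit false
set_option maxRecDepth 4000
set_option maxHeartbeats 1000000
set_option synthInstance.maxSize 4096
set_option synthInstance.maxHeartbeats 100000

namespace Cfsg.Agent.H30.J2U

open Cfsg.Agent.H59.HJ

/-- The outer involution of the model. -/
def tC : Q0 × A5 := (0, sig0)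

/-- The inner involution of the component. -/
def aC : Q0 × A5 := (15, 1)

/-- The outer elements commuting with the outer involution. -/
def candU : List (Q0 × A5) :=
  [(0, v2), (0, v1 * v2), (15, v1), (15, v2), (15, v1 * v2), (16, v1), (16, v2), (16, v1 * v2),
    (31, v1), (31, v2), (31, v1 * v2)]

/-- The permutation fixes the last point. -/
def Fixes (σ : A5) : Prop := (σ : Equiv.Perm (Fin 5)) 4 = 4

instance : DecidablePred Fixes := fun σ =>
  inferInstanceAs (Decidable ((σ : Equiv.Perm (Fin 5)) 4 = 4))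

theorem outer_commuting : ∀ a : Q0 × A5, pm a tC = pm tC a → a.2 ≠ 1 → a ≠ tC → a ∈ candU := by
  decide +kernel

theorem outer_three : ∀ g : Q0 × A5, pm g aC = pm aC g → pm g (pm g g) = (0, 1) → g ≠ (0, 1) →
    pm g tC ≠ pm tC g → ∀ u ∈ candU,
    pm (pm g tC) (pm g g) ∈ [u, pm tC u] → pm (pm g u) (pm g g) ∈ [tC, u, pm tC u] →
      (u = (0, v2) ∨ u = (0, v1 * v2)) ∧ g.1 = 0 ∧ Fixes g.2 := by
  decide +kernel

theorem stab_gen : ∀ s : A5, Fixes s → s * (s * s) = 1 → s ≠ 1 → ∀ σ : A5, Fixes σ →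
    ∃ w ∈ [1, v1, v2, v1 * v2], ∃ j ∈ [1, s, s * s], σ = w * j := by
  decide +kernel

theorem klein_conj : ∀ m n : A5, m * m = 1 → m ≠ 1 → n * n = 1 → n ≠ 1 → m * n = n * m → m ≠ n →
    ∃ σ : Equiv.Perm (Fin 5), σ * (m : Equiv.Perm (Fin 5)) * σ⁻¹ = v1 ∧
      σ * (n : Equiv.Perm (Fin 5)) * σ⁻¹ = v2 := by
  decide +kernel

theorem wu_facts : v1 * valA wu * v1⁻¹ = (valA wu)⁻¹ ∧ (valA wu) ^ 5 = 1 ∧ valA wu ≠ 1 := by
  decide +kernel

theorem wb_facts : valA wb * v1 * (valA wb)⁻¹ = v2 ∧ valA wb * v2 * (valA wb)⁻¹ = v1 * v2 := by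
  decide +kernel

theorem wg_facts : (valC wg).1 = 0 ∧ Fixes (valC wg).2 ∧
    (valC wg).2 * v1 * ((valC wg).2)⁻¹ * v1 = v1 * ((valC wg).2 * v1 * ((valC wg).2)⁻¹) ∧
    (valC wg).2 * v1 * ((valC wg).2)⁻¹ ≠ v1 ∧ Fixes v1 ∧ Fixes v2 ∧
    Fixes ((valC wg).2 * (valC wg).2) := by
  decide +kernel

/-- The only lifts of the generator of the centralizer of an element of order five. -/
theorem lift_cases : ∀ q : Q0,
    (∀ σ : A5, Fixes σ → ∀ k ∈ [2, 3, 5], (v3 * σ) ^ k = 1 → ppow (pm (q, v3) (0, σ)) k = (0, 1)) →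
      q = 0 ∨ q = 27 := by
  decide +kernel

theorem lift_conj : pm (pm aC (27, v3)) aC = (0, v3) ∧ pm aC aC = (0, 1) ∧
    v2 * v1 * v2⁻¹ = v1 ∧ v2 * v2 * v2⁻¹ = v2 := by
  decide +kernel

theorem wk_facts : pm (valC wk) aC = pm aC (valC wk) ∧ pm (valC wk) (valC wk) = (0, 1) ∧
    pm (pm (valC wk) tC) (valC wk) = pm (zQ, 1) tC ∧
    pm (pm (pm (pm (valC wk) (valC wg)) (valC wk)) (valC wg)) (valC wk) =
      pm aC (0, (valC wg).2 * (valC wg).2) := by
  decide +kernel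

theorem wkk_unique : ∀ x : Q0 × A5, pm x aC = pm aC x → pm x x = (0, 1) →
    pm (pm x tC) x = pm aC tC →
    pm (pm (pm (pm x (valC wg)) x) (valC wg)) x = pm (31, 1) (0, (valC wg).2 * (valC wg).2) →
      x = valC wkk := by
  decide +kernel

theorem model_misc : pm ((zQ, 1) : Q0 × A5) aC = (31, 1) ∧ tC.2 ≠ 1 ∧ aC ≠ (0, 1) ∧
    mulQ (15 : Q0) 15 = 0 ∧ (15 : Q0) ≠ 0 ∧ pm aC tC = pm tC aC ∧
    pm tC (0, v2) = (0, v1 * v2) ∧ v1 ≠ 1 ∧ v2 ≠ 1 ∧ v1 * v1 = 1 ∧ v2 * v2 = 1 := by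
  decide +kernel

theorem pm_zero : ∀ σ τ : A5, pm (0, σ) (0, τ) = (0, σ * τ) := by
  decide +kernel

end Cfsg.Agent.H30.J2U
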