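import Cfsg.Agent.H59.HJ.Main
import Cfsg.Agent.H28.ZStar
import Cfsg.Agent.H30.J2U.ModelFacts

/-!
# A simple group with two classes of involutions is of Hall–Janko type
-/

set_option autoImplicit false
set_option linter.style.haveILetI false
set_option maxRecDepth 4000
set_option maxHeartbeats 1000000

namespace Cfsg.Agent.H30.J2U

open Subgroup Cfsg.Agent.H59.HJ

/-- An involution of the extraspecial group outside the centre. -/
theorem exists_noncentral {H : Type*} [Group H] [Finite H] {Q : Subgroup H} {z : H}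
    (h : Inner Q z) : ∃ u ∈ Q, u * u = 1 ∧ u ≠ 1 ∧ u ≠ z := by
  classical
  by_contra hcon
  simp only [not_exists, not_and, not_not] at hcon
  have hsq : ∀ x ∈ Q, x ≠ 1 → x ≠ z → x * x = z := by
    intro x hx hx1 hxz
    refine (h.center (Q.mul_mem hx hx) fun y hy => ?_).resolve_left fun e => hxz (hcon x hx e hx1)
    rcases h.comm hy hx with e | e
    · rw [mul_assoc, e, ← mul_assoc, e, mul_assoc]
    · have hzx : ∀ r, z * r = r * z := fun r => (h.zc r).symm
      calc x * x * y = x * (x * y) := mul_assoc _ _ _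
        _ = x * (y * (x * z)) := by rw [e]
        _ = x * y * (x * z) := (mul_assoc _ _ _).symm
        _ = y * (x * z) * (x * z) := by rw [e]
        _ = y * (x * (z * x) * z) := by group
        _ = y * (x * x * (z * z)) := by rw [hzx x]; group
        _ = y * (x * x) := by rw [h.zz, mul_one]
  obtain ⟨x, hx, hx1, hxz⟩ : ∃ x ∈ Q, x ≠ 1 ∧ x ≠ z := by
    by_contra hc
    simp only [not_exists, not_and, not_not] at hc
    have hsub : (Q : Set H) ⊆ {1, z} := fun x hx => by
      by_cases h1 : x = 1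
      exacts [Or.inl h1, Or.inr (hc x hx h1)]
    have h2 := (Set.ncard_le_ncard hsub).trans (Set.ncard_insert_le _ _)
    rw [Set.ncard_singleton, ← Nat.card_coe_set_eq, SetLike.coe_sort_coe, h.hcard] at h2
    omega
  obtain ⟨y, hy, hy1, hyz, hyx, hyxz, hxy⟩ :
      ∃ y ∈ Q, y ≠ 1 ∧ y ≠ z ∧ y ≠ x ∧ y ≠ x * z ∧ x * y = y * x := by
    by_contra hc
    simp only [not_exists, not_and] at hc
    set S : Set H := {1, z, x, x * z} with hS
    have hS4 : S.ncard ≤ 4 := by
      refine (Set.ncard_insert_le _ _).trans (Nat.add_le_add_right ?_ 1)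
      refine (Set.ncard_insert_le _ _).trans (Nat.add_le_add_right ?_ 1)
      refine (Set.ncard_insert_le _ _).trans (Nat.add_le_add_right ?_ 1)
      rw [Set.ncard_singleton]
    have hcomm : ∀ y ∈ Q, x * y = y * x → y ∈ S := by
      intro y hy hxy
      simp only [hS, Set.mem_insert_iff, Set.mem_singleton_iff]
      by_contra hn
      simp only [not_or] at hn
      exact hc y hy hn.1 hn.2.1 hn.2.2.1 hn.2.2.2 hxy
    by_cases hall : ∀ y ∈ Q, x * y = y * x
    · exact (h.center hx hall).elim hx1 hxz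
    push Not at hall
    obtain ⟨y₁, hy₁, hne⟩ := hall
    have hsub : (Q : Set H) ⊆ S ∪ (fun w => w * y₁) '' S := by
      intro y hy
      by_cases hc' : x * y = y * x
      · exact Or.inl (hcomm y hy hc')
      refine Or.inr ⟨y * y₁⁻¹, hcomm _ (Q.mul_mem hy (Q.inv_mem hy₁)) ?_, by group⟩
      have e1 : y * x = x * (y * z) := (h.comm hx hy).resolve_left fun e => hc' e.symm
      have e2 : y₁ * x = x * (y₁ * z) := (h.comm hx hy₁).resolve_left fun e => hne e.symm
      have e3 : y₁⁻¹ * x = z * x * y₁⁻¹ := by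
        calc y₁⁻¹ * x = y₁⁻¹ * (x * (y₁ * z) * (z⁻¹ * y₁⁻¹)) := by group
          _ = y₁⁻¹ * (y₁ * x * (z⁻¹ * y₁⁻¹)) := by rw [e2]
          _ = x * z⁻¹ * y₁⁻¹ := by group
          _ = z * x * y₁⁻¹ := by rw [inv_eq_of_mul_eq_one_right h.zz, h.zc x]
      calc x * (y * y₁⁻¹) = x * (y * (z * z)) * y₁⁻¹ := by rw [h.zz]; group
        _ = x * (y * z) * z * y₁⁻¹ := by group
        _ = y * x * z * y₁⁻¹ := by rw [e1]
        _ = y * (z * x * y₁⁻¹) := by rw [← h.zc x]; group
        _ = y * (y₁⁻¹ * x) := by rw [e3]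
        _ = y * y₁⁻¹ * x := by group
    have h2 := ((Set.ncard_le_ncard hsub).trans (Set.ncard_union_le _ _)).trans
      (Nat.add_le_add hS4 ((Set.ncard_image_le (s := S)).trans hS4))
    rw [← Nat.card_coe_set_eq, SetLike.coe_sort_coe, h.hcard] at h2
    omega
  have hsx := hsq x hx hx1 hxz
  have hsy := hsq y hy hy1 hyz
  have e : x * y * (x * y) = 1 := by
    calc x * y * (x * y) = x * (y * x) * y := by group
      _ = (x * x) * (y * y) := by rw [← hxy]; group
      _ = 1 := by rw [hsx, hsy, h.zz]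
  by_cases h1 : x * y = 1
  · refine hyxz ?_
    calc y = x⁻¹ := (eq_inv_of_mul_eq_one_right h1)
      _ = x * z := inv_eq_of_mul_eq_one_right (by rw [← mul_assoc, hsx, h.zz])
  · refine hyx ?_
    have h2 := hcon _ (Q.mul_mem hx hy) e h1
    calc y = x⁻¹ * (x * y) := by group
      _ = x⁻¹ * (x * x) := by rw [h2, hsx]
      _ = x := by group

/-- An involution of a group with trivial odd core and centre has another conjugate in its
centralizer. -/
theorem exists_moved {G : Type*} [Group G] [Finite G] [IsSimpleGroup G] {z : G}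
    (hz : orderOf z = 2) (hcl : ∃ x y : G, orderOf x = 2 ∧ orderOf y = 2 ∧ ¬ IsConj x y) :
    ∃ g : G, g * z * g⁻¹ ∈ centralizer ({z} : Set G) ∧ g * z * g⁻¹ ≠ z := by
  by_contra hcon
  simp only [not_exists, not_and, not_not] at hcon
  have hiso : H28.IsIsolatedInvolution z :=
    ⟨hz, fun g hg => hcon g (mem_centralizer_singleton_iff.2 hg.eq.symm)⟩
  haveI := H19.pPrimeCore_normal 2 G
  have hbot : Cfsg.pPrimeCore 2 G = ⊥ := by
    refine (inferInstance : (Cfsg.pPrimeCore 2 G).Normal).eq_bot_or_eq_top.resolve_right fun h => ?_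
    have h1 := H19.pPrimeCore_coprime (G := G) 2
    rw [h, Subgroup.card_top] at h1
    have h2 : 2 ∣ Nat.card G := hz ▸ orderOf_dvd_natCard z
    exact absurd (Nat.eq_one_of_dvd_coprimes h1 h2 (dvd_refl 2)) (by norm_num)
  have hzc : z ∈ center G := mem_center_iff.2 fun g => by
    have h1 := H28.zStar hiso g
    rw [hbot, mem_bot, mul_inv_eq_one, mul_inv_eq_iff_eq_mul] at h1
    exact h1.symm
  obtain ⟨x, y, hx, hy, hxy⟩ := hcl
  have htop : center G = ⊤ := (inferInstance : (center G).Normal).eq_bot_or_eq_top.resolve_left fun h => by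
    rw [h, mem_bot] at hzc
    rw [hzc, orderOf_one] at hz
    omega
  have hn : (zpowers x).Normal := ⟨fun n hn g => by
    rw [mem_center_iff.1 (htop ▸ mem_top n : n ∈ center G) g, mul_inv_cancel_right]; exact hn⟩
  have hall : zpowers x = ⊤ := hn.eq_bot_or_eq_top.resolve_left fun h => by
    have := mem_zpowers x
    rw [h, mem_bot] at this
    rw [this, orderOf_one] at hx
    omega
  obtain ⟨i, hi⟩ := mem_powers_iff_mem_zpowers.2 (hall ▸ mem_top y : y ∈ zpowers x)
  have hi' : x ^ i = y := hi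
  have hx2 : x ^ 2 = 1 := by rw [← hx, pow_orderOf_eq_one]
  rw [← Nat.mod_add_div i 2, pow_add, pow_mul, hx2, one_pow, mul_one] at hi'
  rcases Nat.mod_two_eq_zero_or_one i with e | e <;> rw [e] at hi'
  · rw [← hi', pow_zero, orderOf_one] at hy; omega
  · rw [pow_one] at hi'
    exact hxy (hi' ▸ IsConj.refl x)

theorem inner_conj_a : ∀ x : Q0, mulQ x x = 0 → x ≠ 0 → x ≠ zQ →
    ∃ σ : A5, ∃ q : Q0, pm (q, σ) (x, 1) = pm aC (q, σ) := by
  decide +kernel

set_option synthInstance.maxSize 4096 in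
set_option synthInstance.maxHeartbeats 100000 in
theorem centre_inner : ∀ a : Q0 × A5, pm a tC = pm tC a → a.2 = 1 →
    a = (0, 1) ∨ a = (zQ, 1) ∨ a = aC ∨ a = pm (zQ, 1) aC := by
  decide +kernel

variable {G : Type*} [Group G] [Finite G]

/-- A Sylow subgroup of the whole group lies in the centralizer. -/
theorem exists_sylow_le {z : G} (hz1 : z ≠ 1) (Q : Subgroup (centralizer ({z} : Set G))) [Q.Normal]
    (hI : Inner Q ⟨z, mem_centralizer_singleton_iff.2 rfl⟩) :
    ∃ S : Sylow 2 G, (S : Subgroup G) ≤ centralizer ({z} : Set G) := by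
  haveI : Fact (Nat.Prime 2) := ⟨Nat.prime_two⟩
  set zH : centralizer ({z} : Set G) := ⟨z, mem_centralizer_singleton_iff.2 rfl⟩
  obtain ⟨S, hS⟩ := (IsPGroup.map hI.hQ.1.1 (centralizer ({z} : Set G)).subtype).exists_le_sylow
  refine ⟨S, ?_⟩
  have hzS : z ∈ (S : Subgroup G) := hS ⟨zH, hI.zmem, rfl⟩
  haveI : Nontrivial (S : Subgroup G) :=
    (nontrivial_iff_ne_bot _).2 fun e => hz1 (mem_bot.1 (e ▸ hzS))
  haveI : Nontrivial (center (S : Subgroup G)) := S.isPGroup'.center_nontrivial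
  obtain ⟨c, hc⟩ := exists_ne (1 : center (S : Subgroup G))
  have hcomm : ∀ y ∈ (S : Subgroup G), ((c : (S : Subgroup G)) : G) * y = y * c := fun y hy =>
    (congrArg Subtype.val (mem_center_iff.1 c.2 ⟨y, hy⟩)).symm
  have hcH : ((c : (S : Subgroup G)) : G) ∈ centralizer ({z} : Set G) :=
    mem_centralizer_singleton_iff.2 (hcomm z hzS)
  have hcQ : (⟨_, hcH⟩ : centralizer ({z} : Set G)) ∈ Q := hI.cent (mem_centralizer_iff.2
    fun y hy => Subtype.ext (hcomm y (hS ⟨y, hy, rfl⟩)).symm)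
  have hcz : ((c : (S : Subgroup G)) : G) = z := by
    rcases hI.center hcQ (fun y hy => Subtype.ext (hcomm y (hS ⟨y, hy, rfl⟩))) with e' | e'
    · exact absurd (Subtype.ext (Subtype.ext (by simpa using congrArg Subtype.val e'))) hc
    · exact congrArg Subtype.val e'
  intro y hy
  exact mem_centralizer_singleton_iff.2 (hcz ▸ hcomm y hy).symm

/-- The hypotheses of Hall–Janko type from two classes of involutions. -/
theorem hyp_of_two_classes [IsSimpleGroup G] (z : G) (hz : orderOf z = 2)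
    (Q : Subgroup (centralizer ({z} : Set G))) [Q.Normal] (hQ : Cfsg.IsExtraspecial 2 Q)
    (hcard : Nat.card Q = 32) (hcent : centralizer (Q : Set (centralizer ({z} : Set G))) ≤ Q)
    (e : (centralizer ({z} : Set G)) ⧸ Q ≃* A5)
    (hcl : ∃ x y : G, orderOf x = 2 ∧ orderOf y = 2 ∧ ¬ IsConj x y) : Hyp z Q := by
  classical
  haveI : Fact (Nat.Prime 2) := ⟨Nat.prime_two⟩
  refine ⟨hz, hcent, hQ, hcard, ⟨e⟩, ?_, hcl⟩
  by_contra hnwc
  simp only [not_exists, not_and, not_not] at hnwc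
  have hz1 : z ≠ 1 := fun h => by simp [h] at hz
  have hz2 : z * z = 1 := by rw [← pow_two, ← hz, pow_orderOf_eq_one]
  set zH : centralizer ({z} : Set G) := ⟨z, mem_centralizer_singleton_iff.2 rfl⟩
  have hI : Inner Q zH :=
    ⟨inferInstance, hcent, hQ, hcard, fun x => Subtype.ext (mem_centralizer_singleton_iff.1 x.2),
      fun h => hz1 (congrArg Subtype.val h), Subtype.ext hz2⟩
  obtain ⟨g, hgC, hgne⟩ := exists_moved hz hcl
  set w : centralizer ({z} : Set G) := ⟨g * z * g⁻¹, hgC⟩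
  have hw2 : w * w = 1 := Subtype.ext (by
    show g * z * g⁻¹ * (g * z * g⁻¹) = 1
    rw [conj_mul, hz2]; group)
  have hw1 : w ≠ 1 := fun h => hz1 (conj_eq_one_iff.1 (congrArg Subtype.val h))
  have hwz : w ≠ zH := fun h => hgne (congrArg Subtype.val h)
  -- no conjugate of `z` other than itself lies in `Q`
  have houtQ : ∀ (h : G) (hm : h * z * h⁻¹ ∈ centralizer ({z} : Set G)),
      (⟨_, hm⟩ : centralizer ({z} : Set G)) ∈ Q → h * z * h⁻¹ = z :=
    fun h hm hq => hnwc h ⟨hm, hq⟩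
  obtain ⟨u₀, hu₀, hu2, hu1, huz⟩ := exists_noncentral hI
  obtain ⟨Φ, hbij, hmul, hzm, -, hQΦ⟩ := hI.exists_frame e hu₀ hu2 hu1 huz fun hall => by
    rcases hall w hw2 hw1 with h | h
    · exact hwz h
    obtain ⟨c, hc⟩ := isConj_iff.1 h
    refine huz (Subtype.ext ?_)
    have hc' : (c : G) * (g * z * g⁻¹) * (c : G)⁻¹ = (u₀ : G) := congrArg Subtype.val hc
    have key : ((c : G) * g) * z * ((c : G) * g)⁻¹ = (u₀ : G) := by rw [← hc']; group
    have hm : ((c : G) * g) * z * ((c : G) * g)⁻¹ ∈ centralizer ({z} : Set G) := key ▸ u₀.2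
    show (u₀ : G) = z
    rw [← key]
    exact houtQ _ hm (by
      rwa [show (⟨_, hm⟩ : centralizer ({z} : Set G)) = u₀ from Subtype.ext key])
  set ψ : Q0 × A5 → G := fun a => (Φ a : G) with hψ
  have hψi : Function.Injective ψ := Subtype.val_injective.comp hbij.1
  have hψm : ∀ a b, ψ (pm a b) = ψ a * ψ b := fun a b => by simp only [hψ, hmul, Subgroup.coe_mul]
  have hψ1 : ψ (0, 1) = 1 := by
    have h := hψm (0, 1) (0, 1)
    rw [(pm_one (0, 1)).1] at h
    exact mul_eq_left.1 h.symm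
  have hψz : ψ (zQ, 1) = z := by simp only [hψ, hzm]; rfl
  have hψC : ∀ a, ψ a ∈ centralizer ({z} : Set G) := fun a => (Φ a).2
  have hsurj : ∀ {x : G}, x ∈ centralizer ({z} : Set G) → ∃ a, ψ a = x := fun {x} hx =>
    (hbij.2 ⟨x, hx⟩).imp fun a ha => congrArg Subtype.val ha
  -- inner involutions other than `z` are not conjugate to `z`
  have hinner : ∀ x : Q0, x ≠ zQ → ¬ IsConj z (ψ (x, 1)) := by
    intro x hx hc
    obtain ⟨h, hh⟩ := isConj_iff.1 hc
    have hm : h * z * h⁻¹ ∈ centralizer ({z} : Set G) := hh ▸ hψC _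
    have h3 : h * z * h⁻¹ = z := houtQ h hm (by
      rw [show (⟨_, hm⟩ : centralizer ({z} : Set G)) = Φ (x, 1) from Subtype.ext hh]
      exact (hQΦ _).2 ⟨x, rfl⟩)
    rw [hh, ← hψz] at h3
    exact hx (congrArg Prod.fst (hψi h3))
  -- an involution of the centralizer conjugate to `z` is `z` or conjugate to the outer one
  have hout : ∀ {x : G}, x ∈ centralizer ({z} : Set G) → IsConj z x → x ≠ z →
      ∃ c ∈ centralizer ({z} : Set G), c * x * c⁻¹ = ψ tC := by
    intro x hx hzx hxz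
    obtain ⟨⟨q, σ⟩, rfl⟩ := hsurj hx
    have hx2 : ψ (q, σ) * ψ (q, σ) = 1 := by
      obtain ⟨h, hh⟩ := isConj_iff.1 hzx
      rw [← hh, conj_mul, hz2]; group
    have hsq : pm (q, σ) (q, σ) = (0, 1) := hψi (by rw [hψm, hx2, hψ1])
    by_cases hσ : σ = 1
    · subst hσ
      exact absurd hzx (hinner q fun h => hxz (by rw [h, hψz]))
    obtain ⟨τ, -, y, hy⟩ := invol_outer σ (congrArg Prod.snd hsq) hσ q (congrArg Prod.fst hsq)
    refine ⟨ψ (y, τ), hψC _, ?_⟩
    rw [mul_inv_eq_iff_eq_mul, ← hψm, ← hψm, hy]; rfl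
  -- an element interchanging `z` and the outer involution
  obtain ⟨c₀, hc₀, hct⟩ := hout hgC (isConj_iff.2 ⟨g, rfl⟩) hgne
  set h₀ := c₀ * g with hh₀
  have h₀z : h₀ * z * h₀⁻¹ = ψ tC := by rw [hh₀, ← hct]; group
  set v := h₀⁻¹ * z * h₀ with hv
  have hvC : v ∈ centralizer ({z} : Set G) := by
    rw [mem_centralizer_singleton_iff]
    have hcomm : ψ tC * z = z * ψ tC := mem_centralizer_singleton_iff.1 (hψC _)
    calc v * z = h₀⁻¹ * (z * (h₀ * z * h₀⁻¹)) * h₀ := by rw [hv]; group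
      _ = h₀⁻¹ * ((h₀ * z * h₀⁻¹) * z) * h₀ := by rw [h₀z, hcomm]
      _ = z * v := by rw [hv]; group
  have hvz : v ≠ z := fun h => by
    have h1 : h₀ * z * h₀⁻¹ = z := by
      conv_lhs => rw [← h, hv]
      group
    rw [h₀z, ← hψz] at h1
    exact model_misc.2.1 (congrArg Prod.snd (hψi h1))
  obtain ⟨c, hc, hcv⟩ := hout hvC (isConj_iff.2 ⟨h₀⁻¹, by rw [hv, inv_inv]⟩) hvz
  set s := h₀ * c⁻¹ with hs
  have hsz : s * z * s⁻¹ = ψ tC := by
    have e : c⁻¹ * z * c = z := by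
      rw [mul_assoc, ← mem_centralizer_singleton_iff.1 hc, inv_mul_cancel_left]
    calc s * z * s⁻¹ = h₀ * (c⁻¹ * z * c) * h₀⁻¹ := by rw [hs]; group
      _ = ψ tC := by rw [e, h₀z]
  have hst : s * ψ tC * s⁻¹ = z := by
    rw [← hcv, hv, hs]; group
  -- the inner involutions commuting with the outer one
  have hmove : ∀ b, (b = aC ∨ b = pm (zQ, 1) aC) →
      ∃ b', (b' = aC ∨ b' = pm (zQ, 1) aC) ∧ s * ψ b * s⁻¹ = ψ b' := by
    intro b hb
    have hb1 : pm b tC = pm tC b ∧ b.2 = 1 ∧ b ≠ (0, 1) ∧ b.1 ≠ zQ ∧ pm b b = (0, 1) := by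
      rcases hb with rfl | rfl <;> decide +kernel
    obtain ⟨hbt, hb2, hb0, hbz, hbsq⟩ := hb1
    have hnot : ¬ IsConj z (s * ψ b * s⁻¹) := fun h => by
      refine hinner b.1 hbz ?_
      rw [show (b.1, (1 : A5)) = b from Prod.ext rfl hb2.symm]
      exact h.trans (isConj_iff.2 ⟨s, rfl⟩ : IsConj (ψ b) _).symm
    have hcz : s * ψ b * s⁻¹ ∈ centralizer ({z} : Set G) := by
      rw [mem_centralizer_singleton_iff, ← hst, conj_mul, conj_mul, ← hψm, hbt, hψm]
    obtain ⟨b', hb'⟩ := hsurj hcz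
    have hcomm : pm b' tC = pm tC b' := hψi (by
      rw [hψm, hψm, hb', ← hsz, conj_mul, conj_mul, mem_centralizer_singleton_iff.1 (hψC b)])
    have h2 : b'.2 = 1 := by
      by_contra h2
      have hsq : pm b' b' = (0, 1) := hψi (by
        rw [hψm, hb', hψ1, conj_mul, ← hψm, hbsq, hψ1]; group)
      obtain ⟨τ, -, y, hy⟩ := invol_outer b'.2 (congrArg Prod.snd hsq) h2 b'.1 (congrArg Prod.fst hsq)
      have hconj : IsConj (ψ b') (ψ tC) := isConj_iff.2 ⟨ψ (y, τ), by
        rw [mul_inv_eq_iff_eq_mul, ← hψm, ← hψm, hy]; rfl⟩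
      exact hnot (hb' ▸ (isConj_iff.2 ⟨s, hsz⟩ : IsConj z (ψ tC)).trans hconj.symm)
    refine ⟨b', ?_, hb'.symm⟩
    rcases centre_inner b' hcomm h2 with rfl | rfl | rfl | rfl
    · exfalso
      rw [hψ1] at hb'
      exact hb0 (hψi ((conj_eq_one_iff.1 hb'.symm).trans hψ1.symm))
    · exact absurd (hb' ▸ hψz.symm ▸ IsConj.refl z) hnot
    · exact Or.inl rfl
    · exact Or.inr rfl
  obtain ⟨b₁, hb₁, e₁⟩ := hmove aC (Or.inl rfl)
  obtain ⟨b₂, hb₂, e₂⟩ := hmove (pm (zQ, 1) aC) (Or.inr rfl)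
  have hprod : ψ tC = ψ (pm b₂ b₁) := by
    rw [hψm, ← e₁, ← e₂, conj_mul, ← hψm,
      show pm (pm ((zQ, 1) : Q0 × A5) aC) aC = (zQ, 1) by decide +kernel, hψz, hsz]
  have h := congrArg Prod.snd (hψi hprod)
  rcases hb₁ with rfl | rfl <;> rcases hb₂ with rfl | rfl <;>
    exact absurd h (by decide +kernel)

/-- The working data from the hypotheses. -/
theorem exists_data_of_hyp {z : G} {Q : Subgroup (centralizer ({z} : Set G))} [Q.Normal]
    (h : Hyp z Q) :
    ∃ (t f k : G) (E A B W : Subgroup G) (Φ : Q0 × A5 → G), Frame z Φ ∧ Data z t f k E A B W := by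
  obtain ⟨Φ, F⟩ := exists_frame h
  obtain ⟨t, E, A, hl⟩ := exists_local F
  obtain ⟨f, k, d⟩ := exists_five F hl
  obtain ⟨W, s⟩ := hl.exists_split d
  exact ⟨t, f, k, E, A, derT t, W, Φ, F, hl, d, s⟩

end Cfsg.Agent.H30.J2U
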