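import Cfsg.Agent.H30.J2U.Main
import Cfsg.Agent.H30.J2U.TwoClasses
import Cfsg.Agent.H15.J2.Recog
import Cfsg.Agent.H15.J2.Simple

/-!
# Recognition of the Hall–Janko group
-/

set_option autoImplicit false
set_option linter.style.haveILetI false

namespace Cfsg.Agent.H30.J2U

open Subgroup Cfsg.Agent.H59.HJ

/-- A group of Hall–Janko type is isomorphic to the Hall–Janko group. -/
theorem isoJ2_of_data {G : Type*} [Group G] [Finite G] {z t f k : G} {E A B W : Subgroup G}
    {Φ : Q0 × A5 → G} (F : Frame z Φ) (d : Data z t f k E A B W) : Cfsg.Spor.IsoJ2 G := by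
  haveI : Finite Cfsg.Spor.J2 :=
    Nat.finite_of_card_ne_zero (by rw [H15.J2.j2_card]; norm_num)
  haveI := H15.J2.j2_simple
  obtain ⟨w, Q, hn, hw, hQ, hcard, hcent, ⟨e⟩, hcl⟩ := H15.J2.recog_hyps
  haveI := hn
  obtain ⟨t', f', k', E', A', B', W', Ψ, F', d'⟩ :=
    exists_data_of_hyp (hyp_of_two_classes w hw Q hQ hcard hcent e hcl)
  exact nonempty_mulEquiv F d F' d'

end Cfsg.Agent.H30.J2U
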