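import Cfsg.Agent.H59.HJ.Model
import Cfsg.Agent.H16.CosetBound

/-!
# Relators of the Hall–Janko group over the centralizer of an inner involution

The generators are four involutions of the model of the centralizer and one further involution of
the component of the centralizer of the other kind of involution.
-/

set_option autoImplicit false
set_option maxRecDepth 4000
set_option maxHeartbeats 1000000

namespace Cfsg.Agent.H30.J2U

open Cfsg.Agent.H59.HJ Cfsg.Agent.H16

/-- The permutation `(01)(23)`. -/
def v1 : A5 := sig0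

/-- The permutation `(02)(13)`. -/
def v2 : A5 := ⟨Equiv.swap 0 2 * Equiv.swap 1 3,
  Equiv.Perm.mem_alternatingGroup.2 (by decide +kernel)⟩

/-- The permutation `(01)(24)`. -/
def v3 : A5 := ⟨Equiv.swap 0 1 * Equiv.swap 2 4,
  Equiv.Perm.mem_alternatingGroup.2 (by decide +kernel)⟩

/-- The generators of the alternating group. -/
def genA : ℕ → A5
  | 0 => v1
  | 1 => v2
  | 2 => v3
  | _ => 1

/-- The generators of the centralizer. -/
def genC : ℕ → Q0 × A5
  | 0 => (0, sig0)
  | 1 => (0, v2)
  | 2 => (0, v3)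
  | 3 => (15, 1)
  | _ => (0, 1)

/-- Value of a word in the alternating group. -/
def valA (w : List ℕ) : A5 := (w.map genA).prod

/-- Value of a word in the centralizer. -/
def valC (w : List ℕ) : Q0 × A5 := w.foldr (fun k a => pm (genC k) a) (0, 1)

/-- The word of the central involution. -/
def wz : List ℕ := [2, 3, 2, 3, 2, 3, 2, 3]

/-- The word of the element of order three. -/
def wg : List ℕ := [2, 0, 1, 2, 1, 2]

/-- The word of the inner element moved by the element of order three of the component. -/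
def wk : List ℕ := [2, 3, 2, 0, 3, 2, 3, 2]

/-- The word of its image. -/
def wkk : List ℕ := [1, 2, 3, 2, 1, 2, 3, 2, 1]

/-- The word of the element of order three of the component. -/
def wb : List ℕ := [2, 1, 2, 0, 1, 2]

/-- The word of the element of order five of the component. -/
def wu : List ℕ := [0, 1, 2, 1, 2, 1]

/-- The word of a letter of the component. -/
def subL : ℕ → List ℕ
  | 0 => wz
  | 1 => [3]
  | _ => [4]

/-- The word of a word of the component. -/
def subB (w : List ℕ) : List ℕ := w.flatMap subL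

/-- Relators of the centralizer. -/
def relsC : List (List ℕ) :=
  [[0, 1, 0, 1], [0, 2, 0, 2, 0, 2], [0, 3, 0, 3], [1, 2, 1, 2, 1, 2, 1, 2, 1, 2], [1, 3, 1, 3],
    [2, 3, 2, 3, 2, 3, 2, 3, 2, 3, 2, 3, 2, 3, 2, 3], [1, 2, 1, 2, 0, 1, 2, 1, 2, 1, 0, 2, 1, 2, 0],
    [3] ++ wg ++ [3] ++ wg.reverse, wz ++ [0] ++ wz.reverse ++ [0], wz ++ [1] ++ wz.reverse ++ [1],
    wz ++ [2] ++ wz.reverse ++ [2],
    [1, 2, 3, 2, 1, 0, 1, 2, 3, 2, 1, 0, 2, 3, 2, 0, 2, 3, 2, 0, 3], wz ++ wz]

/-- Relators of the component. -/
def relsA : List (List ℕ) :=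
  [[0, 1, 0, 1], [0, 2, 0, 2, 0, 2], [1, 2, 1, 2, 1, 2, 1, 2, 1, 2],
    [1, 2, 1, 2, 0, 1, 2, 1, 2, 1, 0, 2, 1, 2, 0]]

/-- The relators. -/
def rels : List (List ℕ) :=
  ((List.range 5).map fun k => [k, k]) ++ relsC ++ relsA.map subB ++
    [[4, 0, 4, 0], [4, 1, 4, 1], [4] ++ wg ++ [4] ++ wg.reverse] ++
    [subB wb ++ wk ++ (subB wb).reverse ++ wkk.reverse] ++
    [subB wu ++ [2] ++ (subB wu).reverse ++ [2]]

/-- The words of the certificate. -/
def allWords : List (List ℕ) := rels ++ [[0], [1], [2], [3]]

theorem genA_sq : ∀ k, k < 3 → genA k * genA k = 1 := by decide +kernel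

theorem genC_sq : ∀ k, k < 4 → pm (genC k) (genC k) = (0, 1) := by decide +kernel

theorem relsC_trivial : ∀ w ∈ relsC, valC w = (0, 1) := by decide +kernel

theorem relsA_trivial : ∀ w ∈ relsA, valA w = 1 := by decide +kernel

theorem relsC_lt : ∀ w ∈ relsC, ∀ k ∈ w, k < 4 := by decide +kernel

theorem relsA_lt : ∀ w ∈ relsA, ∀ k ∈ w, k < 3 := by decide +kernel

theorem wz_value : valC wz = (zQ, 1) := by decide +kernel

theorem inv_formula : ∀ a : Q0 × A5,
    pm a (actQ a.2⁻¹ (mulQ a.1 (mulQ a.1 a.1)), a.2⁻¹) = (0, 1) := by decide +kernel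

theorem genC_outside : ∀ k, 4 ≤ k → genC k = (0, 1)
  | 0, h => absurd h (by omega)
  | 1, h => absurd h (by omega)
  | 2, h => absurd h (by omega)
  | 3, h => absurd h (by omega)
  | k + 4, _ => rfl

/-- The local configuration giving the relators. -/
structure Pattern (G : Type*) [Group G] where
  φ : Q0 × A5 → G
  β : A5 →* G
  mul : ∀ a b, φ (pm a b) = φ a * φ b
  hz : β v1 = φ (zQ, 1)
  ha : β v2 = φ (15, 1)
  comm0 : Commute (β v3) (φ (0, sig0))
  comm1 : Commute (β v3) (φ (0, v2))
  commg : Commute (β v3) (φ (valC wg))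
  conjk : β (valA wb) * φ (valC wk) * (β (valA wb))⁻¹ = φ (valC wkk)
  commu : Commute (β (valA wu)) (φ (0, v3))

variable {G : Type*} [Group G] (P : Pattern G)

theorem Pattern.one : P.φ (0, 1) = 1 := by
  have h := P.mul (0, 1) (0, 1)
  rw [show pm ((0, 1) : Q0 × A5) (0, 1) = (0, 1) by decide +kernel] at h
  exact mul_eq_left.1 h.symm

/-- The generators. -/
def Pattern.gen (k : ℕ) : G := if k = 4 then P.β v3 else P.φ (genC k)

theorem Pattern.gen_sq (k : ℕ) : P.gen k * P.gen k = 1 := by
  unfold Pattern.gen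
  split
  · rw [← map_mul, show v3 * v3 = 1 by decide +kernel, map_one]
  · rcases Nat.lt_or_ge k 4 with hk | hk
    · rw [← P.mul, genC_sq k hk, P.one]
    · rw [genC_outside k hk, P.one, one_mul]

theorem Pattern.gen_outside (k : ℕ) (hk : 5 ≤ k) : P.gen k = 1 := by
  rw [Pattern.gen, if_neg (by omega), genC_outside k (by omega), P.one]

/-- Left-to-right product of a word. -/
def wordProd (s : ℕ → G) (w : List ℕ) : G := (w.map s).prod

theorem wordProd_append (s : ℕ → G) (u v : List ℕ) :
    wordProd s (u ++ v) = wordProd s u * wordProd s v := by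
  simp [wordProd]

theorem wordProd_reverse {s : ℕ → G} (hs : ∀ k, s k * s k = 1) :
    ∀ w : List ℕ, wordProd s w.reverse = (wordProd s w)⁻¹
  | [] => by simp [wordProd]
  | k :: w => by
    rw [List.reverse_cons, wordProd_append, wordProd_reverse hs w]
    simp [wordProd, inv_eq_of_mul_eq_one_right (hs k)]

theorem ev_eq {s : ℕ → G} (hs : ∀ k, s k * s k = 1) :
    ∀ w : List ℕ, EnumData.ev s w = (wordProd s w)⁻¹
  | [] => by simp [wordProd, EnumData.ev]
  | k :: w => by
    rw [EnumData.ev, ev_eq hs w]
    simp [wordProd, inv_eq_of_mul_eq_one_right (hs k)]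

theorem Pattern.prodC (P : Pattern G) : ∀ w : List ℕ, (∀ k ∈ w, k < 4) → wordProd P.gen w = P.φ (valC w)
  | [], _ => by simp [wordProd, valC, P.one]
  | k :: w, hw => by
    have hk := hw k (List.mem_cons_self ..)
    have ih := P.prodC w fun j hj => hw j (List.mem_cons_of_mem _ hj)
    rw [show valC (k :: w) = pm (genC k) (valC w) from rfl, P.mul, ← ih,
      show P.φ (genC k) = P.gen k by rw [Pattern.gen, if_neg (by omega)]]
    simp [wordProd]

theorem Pattern.prodL : ∀ k, k < 3 → wordProd P.gen (subL k) = P.β (genA k) := by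
  intro k hk
  interval_cases k
  · rw [show subL 0 = wz from rfl, P.prodC _ (by decide), wz_value, ← P.hz]; rfl
  · rw [show subL 1 = [3] from rfl, show genA 1 = v2 from rfl, P.ha]
    simp [wordProd, Pattern.gen, genC]
  · rw [show subL 2 = [4] from rfl, show genA 2 = v3 from rfl]
    simp [wordProd, Pattern.gen]

theorem Pattern.prodB (P : Pattern G) : ∀ w : List ℕ, (∀ k ∈ w, k < 3) → wordProd P.gen (subB w) = P.β (valA w)
  | [], _ => by simp [wordProd, subB, valA]
  | k :: w, hw => by
    have hk := hw k (List.mem_cons_self ..)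
    have ih := P.prodB w fun j hj => hw j (List.mem_cons_of_mem _ hj)
    rw [show subB (k :: w) = subL k ++ subB w from List.flatMap_cons, wordProd_append, ih,
      P.prodL k hk, ← map_mul]
    simp [valA]

theorem Pattern.rel : ∀ w ∈ rels, wordProd P.gen w = 1 := by
  intro w hw
  simp only [rels, List.mem_append, List.mem_map, List.mem_range, List.mem_cons,
    List.not_mem_nil, or_false] at hw
  rcases hw with ((((⟨k, -, rfl⟩ | hw) | ⟨v, hv, rfl⟩) | hw) | rfl) | rfl
  · simp [wordProd, P.gen_sq]
  · rw [P.prodC w (relsC_lt w hw), relsC_trivial w hw, P.one]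
  · rw [P.prodB v (relsA_lt v hv), relsA_trivial v hv, map_one]
  · have hsq := P.gen_sq
    have key : ∀ v : List ℕ, Commute (P.gen 4) (wordProd P.gen v) →
        wordProd P.gen ([4] ++ v ++ [4] ++ v.reverse) = 1 := by
      intro v hv
      rw [wordProd_append, wordProd_append, wordProd_append, wordProd_reverse hsq,
        show wordProd P.gen [4] = P.gen 4 by simp [wordProd], hv.eq]
      calc wordProd P.gen v * P.gen 4 * P.gen 4 * (wordProd P.gen v)⁻¹
          = wordProd P.gen v * (P.gen 4 * P.gen 4) * (wordProd P.gen v)⁻¹ := by group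
        _ = 1 := by rw [hsq]; group
    rcases hw with rfl | rfl | rfl
    · refine key [0] ?_
      simpa [wordProd, Pattern.gen, genC] using P.comm0
    · refine key [1] ?_
      simpa [wordProd, Pattern.gen, genC] using P.comm1
    · refine key wg ?_
      rw [P.prodC _ (by decide)]
      simpa [Pattern.gen] using P.commg
  · rw [wordProd_append, wordProd_append, wordProd_append, wordProd_reverse P.gen_sq,
      wordProd_reverse P.gen_sq, P.prodB _ (by decide), P.prodC _ (by decide),
      P.prodC _ (by decide), P.conjk, mul_inv_cancel]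
  · rw [wordProd_append, wordProd_append, wordProd_append, wordProd_reverse P.gen_sq,
      P.prodB _ (by decide), show wordProd P.gen [2] = P.φ (0, v3) by
        simp [wordProd, Pattern.gen, genC], P.commu.eq, mul_inv_cancel_right, ← P.mul,
      show pm ((0, v3) : Q0 × A5) (0, v3) = (0, 1) by decide +kernel, P.one]

/-- The bound given by a certificate. -/
theorem Pattern.card_le {D : EnumData} (hV : D.Valid) (hwords : D.words = allWords)
    (hng : D.ng = 5) (hnrel : D.nrel = rels.length) :
    Finite (Subgroup.closure (Set.range P.gen)) ∧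
      Nat.card (Subgroup.closure (Set.range P.gen)) ≤ D.n * 1920 := by
  let ψ : Q0 × A5 → G := P.φ
  let K : Subgroup G :=
    { carrier := Set.range ψ
      one_mem' := ⟨_, P.one⟩
      mul_mem' := by
        rintro _ _ ⟨a, rfl⟩ ⟨b, rfl⟩
        exact ⟨_, P.mul a b⟩
      inv_mem' := by
        rintro _ ⟨a, rfl⟩
        have hb := inv_formula a
        exact ⟨_, (inv_eq_of_mul_eq_one_right (by rw [← P.mul, hb, P.one])).symm⟩ }
  have : Finite K := (Set.finite_range ψ).to_subtype
  have hK : Nat.card K ≤ 1920 := by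
    refine (Nat.card_le_card_of_surjective (Set.rangeFactorization ψ)
      Set.rangeFactorization_surjective).trans_eq ?_
    rw [Nat.card_prod, card_A5, Nat.card_eq_fintype_card, Fintype.card_fin]
  have hrel : ∀ w ∈ rels, EnumData.ev P.gen w = 1 := fun w hw => by
    rw [ev_eq P.gen_sq, P.rel w hw, inv_one]
  obtain ⟨h1, h2⟩ := EnumData.finite_and_card_le hV P.gen P.gen_sq
    (fun k hk => P.gen_outside k (hng ▸ hk))
    (fun k hk => by
      rw [hnrel] at hk
      rw [nthWord_eq_getD, hwords, allWords, List.getD_append _ _ _ _ hk,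
        List.getD_eq_getElem _ _ hk]
      exact hrel _ (List.getElem_mem hk))
    K (fun k => by
      rw [nthWord_eq_getD]
      by_cases hk : k < D.words.length
      · rw [List.getD_eq_getElem _ _ hk]
        have hm : D.words[k] ∈ allWords := hwords ▸ List.getElem_mem hk
        rcases List.mem_append.mp hm with hm | hm
        · rw [hrel _ hm]; exact one_mem _
        · have hlt : ∀ w ∈ ([[0], [1], [2], [3]] : List (List ℕ)), ∀ j ∈ w, j < 4 := by decide
          rw [ev_eq P.gen_sq, P.prodC _ (hlt _ hm)]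
          exact inv_mem ⟨_, rfl⟩
      · rw [List.getD_eq_default _ _ (Nat.le_of_not_lt hk)]
        exact one_mem _)
  exact ⟨h1, h2.trans (Nat.mul_le_mul_left _ hK)⟩

end Cfsg.Agent.H30.J2U
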